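import Mathlib
import Cfsg.Prelude.Def_JordanBlocks

/-!
Coordinates for the unipotent matrix of a given Jordan type.
-/

set_option autoImplicit false

namespace Cfsg.Agent.Lib.JType

open Matrix

variable {F : Type*} [Field F] {t : ℕ} (d : Fin t → ℕ)

/-- The index type. -/
abbrev Idx {t : ℕ} (d : Fin t → ℕ) : Type := (k : Fin t) × Fin (d k)

/-- The nilpotent part. -/
noncomputable def NN (F : Type*) [Field F] {t : ℕ} (d : Fin t → ℕ) : Matrix (Idx d) (Idx d) F :=
  Cfsg.jordanTypeMatrix d F - 1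

lemma jordan_apply (x y : Idx d) : Cfsg.jordanTypeMatrix d F x y =
    if x = y then 1 else if x.1 = y.1 ∧ (x.2 : ℕ) = (y.2 : ℕ) + 1 then 1 else 0 := by
  obtain ⟨k, i⟩ := x
  obtain ⟨k', j⟩ := y
  rw [Cfsg.jordanTypeMatrix, Matrix.blockDiagonal'_apply]
  by_cases h : k = k'
  · subst h
    simp only [dif_pos, Cfsg.jordanBlock, Matrix.of_apply, Sigma.mk.injEq, heq_eq_eq, true_and, cast_eq]
    by_cases h2 : i = j
    · subst h2
      simp
    · have h3 : (i : ℕ) ≠ j := fun h => h2 (Fin.ext h)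
      rw [if_neg h3, if_neg h2]
  · rw [dif_neg h, if_neg, if_neg]
    · rintro ⟨h2, -⟩
      exact h h2
    · intro h2
      exact h (congrArg Sigma.fst h2)

lemma NN_apply (x y : Idx d) : NN F d x y = if x.1 = y.1 ∧ (x.2 : ℕ) = (y.2 : ℕ) + 1 then 1 else 0 := by
  rw [NN, Matrix.sub_apply, jordan_apply, Matrix.one_apply]
  by_cases h : x = y
  · subst h
    simp
  · rw [if_neg h, if_neg h, sub_zero]

/-- Right multiplication by `N` shifts columns. -/
lemma mul_NN_apply (M : Matrix (Idx d) (Idx d) F) (x : Idx d) (k : Fin t) (l : Fin (d k)) :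
    (M * NN F d) x ⟨k, l⟩ = if h : (l : ℕ) + 1 < d k then M x ⟨k, ⟨l + 1, h⟩⟩ else 0 := by
  rw [Matrix.mul_apply]
  by_cases h : (l : ℕ) + 1 < d k
  · rw [dif_pos h, Finset.sum_eq_single (⟨k, ⟨l + 1, h⟩⟩ : Idx d)]
    · rw [NN_apply, if_pos ⟨rfl, rfl⟩, mul_one]
    · rintro ⟨k', l'⟩ _ hne
      rw [NN_apply, if_neg, mul_zero]
      rintro ⟨h1, h2⟩
      simp only at h1 h2
      subst h1
      exact hne (by congr 1; exact Fin.ext h2)
    · simp
  · rw [dif_neg h]
    apply Finset.sum_eq_zero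
    rintro ⟨k', l'⟩ _
    rw [NN_apply, if_neg, mul_zero]
    rintro ⟨h1, h2⟩
    simp only at h1 h2
    subst h1
    have := l'.2
    omega

/-- Left multiplication by `N` shifts rows. -/
lemma NN_mul_apply (M : Matrix (Idx d) (Idx d) F) (j : Fin t) (s : Fin (d j)) (y : Idx d) :
    (NN F d * M) ⟨j, s⟩ y = if h : (s : ℕ) = 0 then 0 else M ⟨j, ⟨s - 1, by have := s.2; omega⟩⟩ y := by
  rw [Matrix.mul_apply]
  by_cases h : (s : ℕ) = 0
  · rw [dif_pos h]
    apply Finset.sum_eq_zero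
    rintro ⟨k', l'⟩ _
    rw [NN_apply, if_neg, zero_mul]
    rintro ⟨h1, h2⟩
    simp only at h1 h2
    omega
  · rw [dif_neg h, Finset.sum_eq_single (⟨j, ⟨s - 1, by have := s.2; omega⟩⟩ : Idx d)]
    · rw [NN_apply, if_pos ⟨rfl, by simp only; omega⟩, one_mul]
    · rintro ⟨k', l'⟩ _ hne
      rw [NN_apply, if_neg, zero_mul]
      rintro ⟨h1, h2⟩
      simp only at h1 h2
      subst h1
      exact hne (by congr 1; exact Fin.ext (by simp only; omega))
    · simp

lemma NN_mulVec_apply (v : Idx d → F) (j : Fin t) (s : Fin (d j)) :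
    (NN F d *ᵥ v) ⟨j, s⟩ = if h : (s : ℕ) = 0 then 0 else v ⟨j, ⟨s - 1, by have := s.2; omega⟩⟩ := by
  simp only [Matrix.mulVec, dotProduct]
  by_cases h : (s : ℕ) = 0
  · rw [dif_pos h]
    apply Finset.sum_eq_zero
    rintro ⟨k', l'⟩ _
    rw [NN_apply, if_neg, zero_mul]
    rintro ⟨h1, h2⟩
    simp only at h1 h2
    omega
  · rw [dif_neg h, Finset.sum_eq_single (⟨j, ⟨s - 1, by have := s.2; omega⟩⟩ : Idx d)]
    · rw [NN_apply, if_pos ⟨rfl, by simp only; omega⟩, one_mul]
    · rintro ⟨k', l'⟩ _ hne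
      rw [NN_apply, if_neg, zero_mul]
      rintro ⟨h1, h2⟩
      simp only at h1 h2
      subst h1
      exact hne (by congr 1; exact Fin.ext (by simp only; omega))
    · simp

lemma NN_pow_mulVec_apply (c : ℕ) (v : Idx d → F) (j : Fin t) (s : Fin (d j)) :
    ((NN F d) ^ c *ᵥ v) ⟨j, s⟩ = if h : c ≤ (s : ℕ) then v ⟨j, ⟨s - c, by have := s.2; omega⟩⟩ else 0 := by
  induction c generalizing s with
  | zero => simp
  | succ c ih =>
    rw [pow_succ', ← Matrix.mulVec_mulVec, NN_mulVec_apply]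
    by_cases h : (s : ℕ) = 0
    · rw [dif_pos h, dif_neg (by omega)]
    · rw [dif_neg h, ih]
      by_cases h2 : c + 1 ≤ (s : ℕ)
      · rw [dif_pos h2, dif_pos (by simp only; omega)]
        congr 2
        apply Fin.ext
        simp only
        omega
      · rw [dif_neg h2, dif_neg (by simp only; omega)]

lemma NN_nilp : (NN F d) ^ (Fintype.card (Idx d)) = 0 := by
  apply Matrix.toLin'.injective
  apply LinearMap.ext
  intro v
  rw [Matrix.toLin'_apply, map_zero, LinearMap.zero_apply]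
  funext ⟨j, s⟩
  rw [NN_pow_mulVec_apply, dif_neg, Pi.zero_apply]
  have h1 : d j ≤ Fintype.card (Idx d) := by
    rw [Fintype.card_sigma]
    have := Finset.single_le_sum (f := fun k => Fintype.card (Fin (d k))) (fun _ _ => Nat.zero_le _) (Finset.mem_univ j)
    simpa using this
  have := s.2
  omega

end Cfsg.Agent.Lib.JType
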