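import Mathlib
import Cfsg.Agent.Lib.JType.Basic

/-!
The shape of matrices commuting with the nilpotent part of a Jordan matrix.
-/

set_option autoImplicit false

namespace Cfsg.Agent.Lib.JType

open Matrix

variable {F : Type*} [Field F] {t : ℕ} {d : Fin t → ℕ}

section shape

variable {M : Matrix (Idx d) (Idx d) F} (h : M * NN F d = NN F d * M)
include h

lemma comm_step (j k : Fin t) (s s' : Fin (d j)) (l l' : Fin (d k)) (hs : (s' : ℕ) = s + 1)
    (hl : (l' : ℕ) = l + 1) : M ⟨j, s'⟩ ⟨k, l'⟩ = M ⟨j, s⟩ ⟨k, l⟩ := by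
  have h1 := congrFun (congrFun h ⟨j, s'⟩) ⟨k, l⟩
  have hl2 : (l : ℕ) + 1 < d k := by have := l'.2; omega
  have hs2 : ¬ (s' : ℕ) = 0 := by omega
  rw [mul_NN_apply, NN_mul_apply, dif_pos hl2, dif_neg hs2] at h1
  have e1 : (⟨(l : ℕ) + 1, hl2⟩ : Fin (d k)) = l' := Fin.ext hl.symm
  have e2 : (⟨(s' : ℕ) - 1, by have := s'.2; omega⟩ : Fin (d j)) = s := Fin.ext (by simp only; omega)
  rw [e1, e2] at h1
  exact h1

lemma comm_row0 (j k : Fin t) (s : Fin (d j)) (l l' : Fin (d k)) (hs : (s : ℕ) = 0)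
    (hl : (l' : ℕ) = l + 1) : M ⟨j, s⟩ ⟨k, l'⟩ = 0 := by
  have h1 := congrFun (congrFun h ⟨j, s⟩) ⟨k, l⟩
  have hl2 : (l : ℕ) + 1 < d k := by have := l'.2; omega
  rw [mul_NN_apply, NN_mul_apply, dif_pos hl2, dif_pos hs] at h1
  have e1 : (⟨(l : ℕ) + 1, hl2⟩ : Fin (d k)) = l' := Fin.ext hl.symm
  rw [e1] at h1
  exact h1

lemma comm_last (j k : Fin t) (s s' : Fin (d j)) (l : Fin (d k)) (hl : (l : ℕ) + 1 = d k)
    (hs : (s' : ℕ) = s + 1) : M ⟨j, s⟩ ⟨k, l⟩ = 0 := by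
  have h1 := congrFun (congrFun h ⟨j, s'⟩) ⟨k, l⟩
  have hs2 : ¬ (s' : ℕ) = 0 := by omega
  rw [mul_NN_apply, NN_mul_apply, dif_neg (by omega), dif_neg hs2] at h1
  have e2 : (⟨(s' : ℕ) - 1, by have := s'.2; omega⟩ : Fin (d j)) = s := Fin.ext (by simp only; omega)
  rw [e2] at h1
  exact h1.symm

lemma comm_diag (c : ℕ) (j k : Fin t) (s s' : Fin (d j)) (l l' : Fin (d k)) (hs : (s' : ℕ) = s + c)
    (hl : (l' : ℕ) = l + c) : M ⟨j, s'⟩ ⟨k, l'⟩ = M ⟨j, s⟩ ⟨k, l⟩ := by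
  induction c generalizing s' l' with
  | zero =>
    have e1 : s' = s := Fin.ext (by simpa using hs)
    have e2 : l' = l := Fin.ext (by simpa using hl)
    rw [e1, e2]
  | succ c ih =>
    have := s'.2
    have := l'.2
    rw [comm_step h j k ⟨s + c, by omega⟩ s' ⟨l + c, by omega⟩ l' (by simp only; omega) (by simp only; omega)]
    exact ih _ _ rfl rfl

lemma comm_upper (j k : Fin t) (s : Fin (d j)) (l : Fin (d k)) (hlt : (s : ℕ) < l) :
    M ⟨j, s⟩ ⟨k, l⟩ = 0 := by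
  have := s.2
  have := l.2
  rw [comm_diag h s j k ⟨0, by omega⟩ s ⟨l - s, by omega⟩ l (by simp) (by simp only; omega)]
  exact comm_row0 h j k _ ⟨l - s - 1, by omega⟩ _ rfl (by simp only; omega)

lemma comm_low (j k : Fin t) (s : Fin (d j)) (l : Fin (d k)) (hl : (l : ℕ) = 0)
    (hs : (s : ℕ) + d k < d j) : M ⟨j, s⟩ ⟨k, l⟩ = 0 := by
  have := s.2
  have := l.2
  rw [← comm_diag h (d k - 1) j k s ⟨s + (d k - 1), by omega⟩ l ⟨l + (d k - 1), by omega⟩ rfl rfl]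
  exact comm_last h j k _ ⟨s + (d k - 1) + 1, by omega⟩ _ (by simp only; omega) rfl

end shape

/-- Parameters of the commutant. -/
abbrev II (d : Fin t → ℕ) : Type := {p : Fin t × Idx d // d p.2.1 ≤ (p.2.2 : ℕ) + d p.1}

/-- The parameters of a matrix. -/
def toC (hd : ∀ k, 1 ≤ d k) (M : Matrix (Idx d) (Idx d) F) : II d → F :=
  fun p => M p.1.2 ⟨p.1.1, ⟨0, hd _⟩⟩

/-- The matrix with given parameters. -/
def ofC (c : II d → F) : Matrix (Idx d) (Idx d) F := fun x y =>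
  if h : (y.2 : ℕ) ≤ x.2 ∧ d x.1 ≤ (x.2 : ℕ) - y.2 + d y.1 then
    c ⟨(y.1, ⟨x.1, ⟨x.2 - y.2, by have := x.2.2; omega⟩⟩), h.2⟩ else 0

lemma ofC_comm (c : II d → F) : ofC c * NN F d = NN F d * ofC c := by
  ext ⟨j, s⟩ ⟨k, l⟩
  rw [mul_NN_apply, NN_mul_apply]
  have hsj := s.2
  have hlk := l.2
  by_cases h1 : (l : ℕ) + 1 < d k
  · rw [dif_pos h1]
    by_cases h2 : (s : ℕ) = 0
    · rw [dif_pos h2]
      simp only [ofC]
      rw [dif_neg]
      omega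
    · rw [dif_neg h2]
      simp only [ofC]
      by_cases h3 : (l : ℕ) + 1 ≤ s ∧ d j ≤ (s : ℕ) - (l + 1) + d k
      · rw [dif_pos h3, dif_pos (by omega)]
        congr 1
        apply Subtype.ext
        simp only
        congr 3
        omega
      · rw [dif_neg h3, dif_neg (by omega)]
  · rw [dif_neg h1]
    by_cases h2 : (s : ℕ) = 0
    · rw [dif_pos h2]
    · rw [dif_neg h2]
      simp only [ofC]
      rw [dif_neg]
      omega

lemma toC_ofC (hd : ∀ k, 1 ≤ d k) (c : II d → F) : toC hd (ofC c) = c := by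
  funext ⟨⟨k, ⟨j, s⟩⟩, hp⟩
  simp only [toC, ofC]
  rw [dif_pos (by simp only at hp ⊢; omega)]
  congr 1

lemma ofC_toC (hd : ∀ k, 1 ≤ d k) {M : Matrix (Idx d) (Idx d) F} (h : M * NN F d = NN F d * M) :
    ofC (toC hd M) = M := by
  ext ⟨j, s⟩ ⟨k, l⟩
  simp only [ofC, toC]
  by_cases h1 : (l : ℕ) ≤ s ∧ d j ≤ (s : ℕ) - l + d k
  · rw [dif_pos h1]
    exact (comm_diag h l j k _ s _ l (by simp only; omega) (by simp)).symm
  · rw [dif_neg h1]
    by_cases h2 : (l : ℕ) ≤ s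
    · have := s.2
      rw [comm_diag h l j k ⟨s - l, by omega⟩ s ⟨0, hd _⟩ l (by simp only; omega) (by simp)]
      refine (comm_low h j k _ _ rfl ?_).symm
      simp only
      omega
    · exact (comm_upper h j k s l (by omega)).symm

/-- The commutant is parametrised by functions on `II d`. -/
def commEquiv (hd : ∀ k, 1 ≤ d k) : {M : Matrix (Idx d) (Idx d) F // M * NN F d = NN F d * M} ≃ (II d → F) where
  toFun M := toC hd M.1
  invFun c := ⟨ofC c, ofC_comm c⟩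
  left_inv M := Subtype.ext (ofC_toC hd M.2)
  right_inv c := toC_ofC hd c

/-- The diagonal block of size `i`. -/
def gb (hd : ∀ k, 1 ≤ d k) (M : Matrix (Idx d) (Idx d) F) (i : ℕ) :
    Matrix {k // d k = i} {k // d k = i} F :=
  fun j k => M ⟨j.1, ⟨0, hd _⟩⟩ ⟨k.1, ⟨0, hd _⟩⟩

/-- The block function. -/
def bb (d : Fin t → ℕ) (x : Idx d) : ℕᵒᵈ ×ₗ ℕ := toLex (OrderDual.toDual (x.2 : ℕ), d x.1)

lemma comm_tri (hd : ∀ k, 1 ≤ d k) {M : Matrix (Idx d) (Idx d) F} (h : M * NN F d = NN F d * M) :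
    M.BlockTriangular (bb d) := by
  rintro ⟨j, s⟩ ⟨k, l⟩ hlt
  rw [bb, bb, Prod.Lex.toLex_lt_toLex] at hlt
  simp only [OrderDual.toDual_lt_toDual, EmbeddingLike.apply_eq_iff_eq] at hlt
  rcases hlt with hlt | ⟨heq, hlt⟩
  · exact comm_upper h j k s l hlt
  · have := s.2
    have := l.2
    have heq' : (s : ℕ) = l := heq.symm
    rw [comm_diag h s j k ⟨0, hd _⟩ s ⟨0, hd _⟩ l (by simp) (by simp [heq'])]
    exact comm_low h j k _ _ rfl (by simpa using hlt)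

end Cfsg.Agent.Lib.JType
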