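import Mathlib
import Cfsg.Agent.Lib.JType.Comm

/-!
Counting invertible matrices commuting with the nilpotent part of a Jordan matrix.
-/

set_option autoImplicit false

namespace Cfsg.Agent.Lib.JType

open Matrix

variable {F : Type*} [Field F] {t : ℕ} {d : Fin t → ℕ}

/-- Invertibility of a commuting matrix is governed by the diagonal blocks. -/
lemma comm_isUnit_iff (hd : ∀ k, 1 ≤ d k) {M : Matrix (Idx d) (Idx d) F}
    (h : M * NN F d = NN F d * M) :
    IsUnit M.det ↔ ∀ i : Fin (Finset.univ.sup d + 1), IsUnit (gb hd M i).det := by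
  have hsup : ∀ k, d k < Finset.univ.sup d + 1 := fun k =>
    Nat.lt_succ_of_le (Finset.le_sup (f := d) (Finset.mem_univ k))
  have hblock : ∀ (s i : ℕ) (x : Idx d) (hx : bb d x = toLex (OrderDual.toDual s, i)),
      s < i ∧ d x.1 = i ∧ (x.2 : ℕ) = s := by
    rintro s i ⟨j, s'⟩ hx
    simp only [bb, EmbeddingLike.apply_eq_iff_eq, Prod.mk.injEq] at hx
    have h1 : (s' : ℕ) = s := hx.1
    have h2 := s'.2
    refine ⟨by omega, hx.2, h1⟩
  have hdet : ∀ (s i : ℕ) (hsi : s < i), (M.toSquareBlock (bb d) (toLex (OrderDual.toDual s, i))).det = (gb hd M i).det := by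
    intro s i hsi
    let e : {x : Idx d // bb d x = toLex (OrderDual.toDual s, i)} ≃ {k // d k = i} :=
      { toFun := fun x => ⟨x.1.1, (hblock s i x.1 x.2).2.1⟩
        invFun := fun k => ⟨⟨k.1, ⟨s, by rw [k.2]; exact hsi⟩⟩, by simp [bb, k.2]⟩
        left_inv := by
          rintro ⟨⟨j, s'⟩, hx⟩
          have := hblock s i ⟨j, s'⟩ hx
          apply Subtype.ext
          simp only
          congr 1
          exact Fin.ext this.2.2.symm
        right_inv := by
          rintro ⟨k, hk⟩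
          rfl }
    rw [← Matrix.det_submatrix_equiv_self e (gb hd M i)]
    congr 1
    ext ⟨⟨j, s1⟩, hx⟩ ⟨⟨k, s2⟩, hy⟩
    have h1 := hblock s i _ hx
    have h2 := hblock s i _ hy
    simp only at h1 h2
    simp only [Matrix.toSquareBlock_def, Matrix.submatrix_apply, gb]
    apply comm_diag h s j k
    · simp [h1.2.2]
    · simp [h2.2.2]
  rw [(comm_tri hd h).det]
  constructor
  · intro hu i
    by_cases hi : ∃ k, d k = i
    · obtain ⟨k, hk⟩ := hi
      have h0 : (0 : ℕ) < i := by have := hd k; omega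
      rw [← hdet 0 i h0]
      have hmem : (toLex (OrderDual.toDual (0 : ℕ), (i : ℕ)) : ℕᵒᵈ ×ₗ ℕ) ∈ Finset.univ.image (bb d) := by
        rw [Finset.mem_image]
        refine ⟨⟨k, ⟨0, hd k⟩⟩, Finset.mem_univ _, ?_⟩
        simp [bb, hk]
      exact isUnit_of_dvd_unit (Finset.dvd_prod_of_mem (fun a => (M.toSquareBlock (bb d) a).det) hmem) hu
    · have : IsEmpty {k // d k = i} := ⟨fun k => hi ⟨k.1, k.2⟩⟩
      rw [Matrix.det_isEmpty]
      exact isUnit_one
  · intro hu
    rw [isUnit_iff_ne_zero, Finset.prod_ne_zero_iff]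
    intro a ha
    rw [Finset.mem_image] at ha
    obtain ⟨x, -, rfl⟩ := ha
    have h1 := hblock (x.2 : ℕ) (d x.1) x rfl
    rw [bb, hdet (x.2 : ℕ) (d x.1) h1.1]
    exact (hu ⟨d x.1, hsup _⟩).ne_zero

/-- `Nat.card` of the invertible commuting matrices in terms of parameters. -/
lemma card_GL_comm_eq (hd : ∀ k, 1 ≤ d k) :
    Nat.card {g : GL (Idx d) F // (g : Matrix (Idx d) (Idx d) F) * Cfsg.jordanTypeMatrix d F =
        Cfsg.jordanTypeMatrix d F * (g : Matrix (Idx d) (Idx d) F)} =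
    Nat.card {c : II d → F // ∀ i : Fin (Finset.univ.sup d + 1), IsUnit (gb hd (ofC c) i).det} := by
  have hJ : Cfsg.jordanTypeMatrix d F = NN F d + 1 := by simp [NN]
  have key : ∀ M : Matrix (Idx d) (Idx d) F, M * Cfsg.jordanTypeMatrix d F = Cfsg.jordanTypeMatrix d F * M ↔
      M * NN F d = NN F d * M := by
    intro M
    rw [hJ, mul_add, add_mul, mul_one, one_mul, add_left_inj]
  refine Nat.card_congr ⟨fun g => ⟨toC hd g.1.1, ?_⟩, fun c => ⟨Matrix.GeneralLinearGroup.mkOfDetNeZero (ofC c) ?_, ?_⟩, ?_, ?_⟩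
  · rw [ofC_toC hd ((key _).1 g.2), ← comm_isUnit_iff hd ((key _).1 g.2)]
    exact (Matrix.isUnit_iff_isUnit_det _).1 g.1.isUnit
  · exact ((comm_isUnit_iff hd (ofC_comm c.1)).2 c.2).ne_zero
  · exact (key _).2 (ofC_comm c.1)
  · rintro ⟨g, hg⟩
    apply Subtype.ext
    apply Units.ext
    exact ofC_toC hd ((key _).1 hg)
  · rintro ⟨c, hc⟩
    apply Subtype.ext
    exact toC_ofC hd c

/-- The parameters on the diagonal blocks. -/
def pD (x : II d) : Prop := (x.1.2.2 : ℕ) = 0 ∧ d x.1.2.1 = d x.1.1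

instance : DecidablePred (pD (d := d)) := fun x => by unfold pD; infer_instance

/-- The diagonal block from diagonal parameters. -/
def gd (hd : ∀ k, 1 ≤ d k) (c₁ : {x : II d // pD x} → F) (i : ℕ) :
    Matrix {k // d k = i} {k // d k = i} F :=
  fun j k => c₁ ⟨⟨(k.1, ⟨j.1, ⟨0, hd _⟩⟩), by simp [j.2, k.2]⟩, ⟨rfl, by simp [j.2, k.2]⟩⟩

lemma gb_ofC (hd : ∀ k, 1 ≤ d k) (c : II d → F) (i : ℕ) :
    gb hd (ofC c) i = gd hd (fun x => c x.1) i := by
  ext j k
  simp only [gb, gd, ofC]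
  rw [dif_pos (by simp [j.2, k.2])]

/-- Diagonal parameters are tuples of square matrices. -/
def dEquiv (hd : ∀ k, 1 ≤ d k) : ({x : II d // pD x} → F) ≃
    ∀ i : Fin (Finset.univ.sup d + 1), Matrix {k // d k = (i : ℕ)} {k // d k = (i : ℕ)} F where
  toFun c₁ i := gd hd c₁ i
  invFun m x := m ⟨d x.1.1.2.1, Nat.lt_succ_of_le (Finset.le_sup (f := d) (Finset.mem_univ _))⟩
    ⟨x.1.1.2.1, rfl⟩ ⟨x.1.1.1, x.2.2.symm⟩
  left_inv c₁ := by
    funext ⟨⟨⟨k, ⟨j, s⟩⟩, hp⟩, h0, h1⟩
    simp only [gd]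
    have h0' : (s : ℕ) = 0 := h0
    have e : s = ⟨0, hd _⟩ := Fin.ext h0'
    subst e
    rfl
  right_inv m := by
    funext ⟨i, hi⟩
    ext ⟨j, hj⟩ ⟨k, hk⟩
    simp only at hj hk
    subst hj
    rfl

lemma card_step2 (hd : ∀ k, 1 ≤ d k) :
    Nat.card {c : II d → F // ∀ i : Fin (Finset.univ.sup d + 1), IsUnit (gb hd (ofC c) i).det} =
    Nat.card {c₁ : {x : II d // pD x} → F // ∀ i : Fin (Finset.univ.sup d + 1), IsUnit (gd hd c₁ i).det} *
      Nat.card ({x : II d // ¬ pD x} → F) := by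
  rw [← Nat.card_prod]
  refine Nat.card_congr ⟨fun c => (⟨fun x => c.1 x.1, ?_⟩, fun x => c.1 x.1),
    fun c => ⟨fun x => if h : pD x then c.1.1 ⟨x, h⟩ else c.2 ⟨x, h⟩, ?_⟩, ?_, ?_⟩
  · intro i
    rw [← gb_ofC]
    exact c.2 i
  · intro i
    rw [gb_ofC]
    convert c.1.2 i using 3
    funext x
    rw [dif_pos x.2]
  · rintro ⟨c, hc⟩
    apply Subtype.ext
    funext x
    by_cases h : pD x
    · simp [h]
    · simp [h]
  · rintro ⟨⟨c₁, h1⟩, c₂⟩
    apply Prod.ext
    · apply Subtype.ext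
      funext x
      simp [x.2]
    · funext x
      simp [x.2]

/-- `GL` of a finite type. -/
lemma card_GL_fintype {ι : Type*} [Fintype ι] [DecidableEq ι] {q : ℕ} [Fintype F]
    (hF : Fintype.card F = q) : Nat.card (GL ι F) =
    ∏ j : Fin (Fintype.card ι), (q ^ Fintype.card ι - q ^ (j : ℕ)) := by
  have e : ι ≃ Fin (Fintype.card ι) := Fintype.equivFin ι
  have e2 : GL ι F ≃ GL (Fin (Fintype.card ι)) F :=
    (Units.mapEquiv (Matrix.reindexAlgEquiv F F e).toMulEquiv).toEquiv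
  rw [Nat.card_congr e2, Matrix.card_GL_field, hF]

lemma card_step3 (hd : ∀ k, 1 ≤ d k) :
    Nat.card {c₁ : {x : II d // pD x} → F // ∀ i : Fin (Finset.univ.sup d + 1), IsUnit (gd hd c₁ i).det} =
    ∏ i : Fin (Finset.univ.sup d + 1), Nat.card (GL {k // d k = (i : ℕ)} F) := by
  rw [← Nat.card_pi]
  refine Nat.card_congr ⟨fun c i => Matrix.GeneralLinearGroup.mkOfDetNeZero (gd hd c.1 i) (c.2 i).ne_zero,
    fun g => ⟨(dEquiv hd).symm (fun i => (g i : Matrix _ _ F)), ?_⟩, ?_, ?_⟩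
  · intro i
    change IsUnit (Matrix.det ((dEquiv hd) ((dEquiv hd).symm (fun i => ((g i : GL _ F) : Matrix {k // d k = (i : ℕ)} {k // d k = (i : ℕ)} F))) i))
    rw [Equiv.apply_symm_apply]
    exact (Matrix.isUnit_iff_isUnit_det _).1 (g i).isUnit
  · rintro ⟨c, hc⟩
    apply Subtype.ext
    apply (dEquiv hd).injective
    rw [Equiv.apply_symm_apply]
    rfl
  · intro g
    funext i
    apply Units.ext
    have h1 := congrFun ((dEquiv hd).apply_symm_apply (fun i => ((g i : GL _ F) : Matrix {k // d k = (i : ℕ)} {k // d k = (i : ℕ)} F))) i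
    exact h1

/-- The non-diagonal parameters as a sigma type. -/
def rEquiv (d : Fin t → ℕ) : {x : II d // ¬ pD x} ≃
    Σ k : Fin t, Σ j : Fin t, {s : Fin (d j) // d j ≤ (s : ℕ) + d k ∧ ¬ ((s : ℕ) = 0 ∧ d j = d k)} where
  toFun x := ⟨x.1.1.1, ⟨x.1.1.2.1, ⟨x.1.1.2.2, ⟨x.1.2, x.2⟩⟩⟩⟩
  invFun y := ⟨⟨(y.1, ⟨y.2.1, y.2.2.1⟩), y.2.2.2.1⟩, y.2.2.2.2⟩
  left_inv _ := rfl
  right_inv _ := rfl

lemma card_s (a b : ℕ) (ha : 1 ≤ a) (hb : 1 ≤ b) :
    Fintype.card {s : Fin a // a ≤ (s : ℕ) + b ∧ ¬ ((s : ℕ) = 0 ∧ a = b)} = min a b - if a = b then 1 else 0 := by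
  obtain ⟨lo, hlo⟩ : ∃ lo, lo = a - b + (if a = b then 1 else 0) := ⟨_, rfl⟩
  have hP : ∀ s : ℕ, (a ≤ s + b ∧ ¬ (s = 0 ∧ a = b)) ↔ lo ≤ s := by
    intro s
    by_cases h : a = b
    · rw [if_pos h] at hlo
      omega
    · rw [if_neg h] at hlo
      omega
  have e : {s : Fin a // a ≤ (s : ℕ) + b ∧ ¬ ((s : ℕ) = 0 ∧ a = b)} ≃ Fin (a - lo) :=
    { toFun := fun s => ⟨s.1 - lo, by have := s.1.2; have := (hP _).1 s.2; omega⟩
      invFun := fun x => ⟨⟨x + lo, by have := x.2; omega⟩, (hP _).2 (by simp)⟩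
      left_inv := by
        rintro ⟨s, hs⟩
        have := (hP _).1 hs
        apply Subtype.ext
        apply Fin.ext
        simp only
        omega
      right_inv := by
        intro x
        apply Fin.ext
        simp }
  rw [Fintype.card_congr e, Fintype.card_fin]
  by_cases h : a = b
  · rw [if_pos h] at hlo ⊢
    omega
  · rw [if_neg h] at hlo ⊢
    omega

lemma sum_fib (f : ℕ → ℕ) : ∑ k, f (d k) = ∑ i ∈ Finset.range (Finset.univ.sup d + 1),
    (Finset.univ.filter (fun k => d k = i)).card * f i := by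
  rw [← Finset.sum_fiberwise_of_maps_to (s := Finset.univ) (t := Finset.range (Finset.univ.sup d + 1)) (g := d)]
  · apply Finset.sum_congr rfl
    intro i _
    rw [Finset.sum_congr rfl (g := fun _ => f i), Finset.sum_const, smul_eq_mul]
    intro k hk
    rw [(Finset.mem_filter.1 hk).2]
  · intro k _
    exact Finset.mem_range.2 (Nat.lt_succ_of_le (Finset.le_sup (f := d) (Finset.mem_univ k)))

lemma arith_gamma (a : ℕ → ℕ) (R : Finset ℕ) :
    ∑ i ∈ R, ∑ j ∈ R, a i * (a j * (min j i - if j = i then 1 else 0)) =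
      2 * (∑ i ∈ R, ∑ j ∈ R, if i < j then i * a i * a j else 0) + ∑ i ∈ R, (i - 1) * a i ^ 2 := by
  have term : ∀ i j, a i * (a j * (min j i - if j = i then 1 else 0)) =
      (if i < j then i * a i * a j else 0) + (if j < i then j * a j * a i else 0) +
        (if i = j then (i - 1) * a i ^ 2 else 0) := by
    intro i j
    rcases lt_trichotomy i j with h | h | h
    · have h1 : j ≠ i := by omega
      have h2 : ¬ j < i := by omega
      have h3 : i ≠ j := by omega
      simp only [h, h1, h2, h3, if_true, if_false, min_eq_right h.le, Nat.sub_zero]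
      ring
    · subst h
      simp only [lt_irrefl, if_true, if_false, min_self]
      ring
    · have h1 : j ≠ i := by omega
      have h2 : ¬ i < j := by omega
      have h3 : i ≠ j := by omega
      simp only [h, h1, h2, h3, if_true, if_false, min_eq_left h.le, Nat.sub_zero]
      ring
  simp_rw [term, Finset.sum_add_distrib]
  have h1 : (∑ i ∈ R, ∑ j ∈ R, if j < i then j * a j * a i else 0) =
      ∑ i ∈ R, ∑ j ∈ R, if i < j then i * a i * a j else 0 := Finset.sum_comm
  have h2 : (∑ i ∈ R, ∑ j ∈ R, if i = j then (i - 1) * a i ^ 2 else 0) = ∑ i ∈ R, (i - 1) * a i ^ 2 := by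
    apply Finset.sum_congr rfl
    intro i hi
    rw [Finset.sum_ite_eq]
    simp [hi]
  rw [h1, h2]
  ring

lemma card_R (hd : ∀ k, 1 ≤ d k) : Fintype.card {x : II d // ¬ pD x} =
    2 * (∑ i ∈ Finset.range (Finset.univ.sup d + 1), ∑ j ∈ Finset.range (Finset.univ.sup d + 1),
      if i < j then i * (Finset.univ.filter (fun k : Fin t => d k = i)).card * (Finset.univ.filter (fun k : Fin t => d k = j)).card else 0) +
    ∑ i ∈ Finset.range (Finset.univ.sup d + 1), (i - 1) * (Finset.univ.filter (fun k : Fin t => d k = i)).card ^ 2 := by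
  rw [← arith_gamma (fun i => (Finset.univ.filter (fun k : Fin t => d k = i)).card),
    Fintype.card_congr (rEquiv d), Fintype.card_sigma]
  simp_rw [← Finset.mul_sum]
  rw [← sum_fib (fun i => ∑ j ∈ Finset.range (Finset.univ.sup d + 1),
      (Finset.univ.filter (fun k : Fin t => d k = j)).card * (min j i - if j = i then 1 else 0))]
  apply Finset.sum_congr rfl
  intro k _
  rw [Fintype.card_sigma, ← sum_fib (fun j => min j (d k) - if j = d k then 1 else 0)]
  apply Finset.sum_congr rfl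
  intro j _
  exact card_s _ _ (hd j) (hd k)

/-- The order of the centraliser of a unipotent matrix. -/
theorem card_centralizer {q : ℕ} [Fintype F] (hF : Fintype.card F = q) (hd : ∀ k, 1 ≤ d k) :
    Nat.card {g : GL (Idx d) F // (g : Matrix (Idx d) (Idx d) F) * Cfsg.jordanTypeMatrix d F =
        Cfsg.jordanTypeMatrix d F * (g : Matrix (Idx d) (Idx d) F)} =
    q ^ (2 * (∑ i ∈ Finset.range (Finset.univ.sup d + 1), ∑ j ∈ Finset.range (Finset.univ.sup d + 1),
      if i < j then i * (Finset.univ.filter (fun k : Fin t => d k = i)).card * (Finset.univ.filter (fun k : Fin t => d k = j)).card else 0) +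
      ∑ i ∈ Finset.range (Finset.univ.sup d + 1), (i - 1) * (Finset.univ.filter (fun k : Fin t => d k = i)).card ^ 2) *
    ∏ i ∈ Finset.range (Finset.univ.sup d + 1), ∏ j : Fin ((Finset.univ.filter (fun k : Fin t => d k = i)).card),
      (q ^ (Finset.univ.filter (fun k : Fin t => d k = i)).card - q ^ (j : ℕ)) := by
  rw [card_GL_comm_eq hd, card_step2, card_step3, mul_comm, ← card_R hd, Nat.card_fun, Nat.card_eq_fintype_card (α := F), hF,
    Nat.card_eq_fintype_card (α := {x : II d // ¬ pD x})]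
  congr 1
  rw [← Fin.prod_univ_eq_prod_range (fun i => ∏ j : Fin ((Finset.univ.filter (fun k : Fin t => d k = i)).card),
      (q ^ (Finset.univ.filter (fun k : Fin t => d k = i)).card - q ^ (j : ℕ)))]
  apply Finset.prod_congr rfl
  intro i _
  rw [card_GL_fintype hF, Fintype.card_subtype]

end Cfsg.Agent.Lib.JType
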