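import Mathlib
import Cfsg.Agent.Lib.JType.Count
import Cfsg.Agent.Lib.Classical.SpInv

/-!
Invariant forms of the unipotent matrix of a given Jordan type: parity of block multiplicities.
-/

set_option autoImplicit false

namespace Cfsg.Agent.Lib.JType

open Matrix

variable {F : Type*} [Field F] {t : ℕ} {d : Fin t → ℕ}

/-- Basis vectors, extended by zero. -/
noncomputable def bv (d : Fin t → ℕ) (F : Type*) [Field F] (j : Fin t) (s : ℕ) : Idx d → F :=
  if h : s < d j then Pi.single ⟨j, ⟨s, h⟩⟩ 1 else 0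

lemma bv_of_le {j : Fin t} {s : ℕ} (h : d j ≤ s) : bv d F j s = 0 := by
  rw [bv, dif_neg (by omega)]

lemma bv_of_lt {j : Fin t} {s : ℕ} (h : s < d j) : bv d F j s = Pi.single ⟨j, ⟨s, h⟩⟩ 1 := by
  rw [bv, dif_pos h]

lemma bv_mk (j : Fin t) (s : Fin (d j)) : (Pi.single ⟨j, s⟩ 1 : Idx d → F) = bv d F j s := by
  rw [bv_of_lt s.2]

lemma J_bv (j : Fin t) (s : ℕ) : Cfsg.jordanTypeMatrix d F *ᵥ bv d F j s = bv d F j s + bv d F j (s + 1) := by
  by_cases h : s < d j
  · rw [bv_of_lt h, Matrix.mulVec_single_one]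
    funext ⟨k, l⟩
    rw [Matrix.col_apply, jordan_apply, Pi.add_apply]
    by_cases h1 : s + 1 < d j
    · rw [bv_of_lt h1, Pi.single_apply, Pi.single_apply]
      by_cases h2 : (⟨k, l⟩ : Idx d) = ⟨j, ⟨s, h⟩⟩
      · rw [if_pos h2, if_pos h2, if_neg, add_zero]
        intro h3
        rw [h2] at h3
        have := congrArg (fun x : Idx d => (x.2 : ℕ)) h3
        simp at this
      · rw [if_neg h2, if_neg h2, zero_add]
        by_cases h3 : k = j ∧ (l : ℕ) = s + 1
        · obtain ⟨rfl, h4⟩ := h3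
          rw [if_pos ⟨rfl, h4⟩, if_pos]
          congr 1
          exact Fin.ext h4
        · rw [if_neg h3, if_neg]
          intro h4
          have h5 := congrArg (fun x : Idx d => x.1) h4
          simp only at h5
          subst h5
          have h6 := congrArg (fun x : Idx d => (x.2 : ℕ)) h4
          simp only at h6
          exact h3 ⟨rfl, h6⟩
    · rw [bv_of_le (by omega), Pi.zero_apply, add_zero, Pi.single_apply]
      by_cases h2 : (⟨k, l⟩ : Idx d) = ⟨j, ⟨s, h⟩⟩
      · rw [if_pos h2, if_pos h2]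
      · rw [if_neg h2, if_neg h2, if_neg]
        rintro ⟨h3, h4⟩
        simp only at h3 h4
        subst h3
        have := l.2
        omega
  · rw [bv_of_le (by omega), bv_of_le (by omega), Matrix.mulVec_zero, add_zero]

section forward

variable (B : LinearMap.BilinForm F (Idx d → F))

lemma E_rel (hJ : ∀ u v, B (Cfsg.jordanTypeMatrix d F *ᵥ u) (Cfsg.jordanTypeMatrix d F *ᵥ v) = B u v)
    (j k : Fin t) (s l : ℕ) :
    B (bv d F j s) (bv d F k (l + 1)) + B (bv d F j (s + 1)) (bv d F k l) +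
      B (bv d F j (s + 1)) (bv d F k (l + 1)) = 0 := by
  have h := hJ (bv d F j s) (bv d F k l)
  rw [J_bv, J_bv] at h
  simp only [map_add, LinearMap.add_apply] at h
  linear_combination h

lemma E_zero_left (k : Fin t) (j : Fin t) {s : ℕ} (h : d j ≤ s) (l : ℕ) :
    B (bv d F j s) (bv d F k l) = 0 := by
  rw [bv_of_le h]
  simp

lemma E_zero_right (j k : Fin t) (s : ℕ) {l : ℕ} (h : d k ≤ l) :
    B (bv d F j s) (bv d F k l) = 0 := by
  rw [bv_of_le h]
  simp

/-- Vanishing above the antidiagonal of the right block. -/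
lemma E_high (hJ : ∀ u v, B (Cfsg.jordanTypeMatrix d F *ᵥ u) (Cfsg.jordanTypeMatrix d F *ᵥ v) = B u v)
    (j k : Fin t) (s l : ℕ) (h : d k ≤ s + l) : B (bv d F j s) (bv d F k l) = 0 := by
  induction s generalizing l with
  | zero => exact E_zero_right B j k 0 (by omega)
  | succ s ih =>
    have key : ∀ c l : ℕ, d k ≤ l + c → s + 1 + l ≥ d k → B (bv d F j (s + 1)) (bv d F k l) = 0 := by
      intro c
      induction c with
      | zero => intro l h1 _; exact E_zero_right B j k _ (by omega)
      | succ c ihc =>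
        intro l h1 h2
        have h3 := E_rel B hJ j k s l
        rw [ih (l + 1) (by omega), ihc (l + 1) (by omega) (by omega)] at h3
        simpa using h3
    exact key (d k) l (by omega) (by omega)

/-- The flipped form is also invariant. -/
lemma flip_inv (hJ : ∀ u v, B (Cfsg.jordanTypeMatrix d F *ᵥ u) (Cfsg.jordanTypeMatrix d F *ᵥ v) = B u v) :
    ∀ u v, B.flip (Cfsg.jordanTypeMatrix d F *ᵥ u) (Cfsg.jordanTypeMatrix d F *ᵥ v) = B.flip u v := by
  intro u v
  exact hJ v u

/-- Vanishing above the antidiagonal of the left block. -/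
lemma E_high' (hJ : ∀ u v, B (Cfsg.jordanTypeMatrix d F *ᵥ u) (Cfsg.jordanTypeMatrix d F *ᵥ v) = B u v)
    (j k : Fin t) (s l : ℕ) (h : d j ≤ s + l) : B (bv d F j s) (bv d F k l) = 0 := by
  have := E_high B.flip (flip_inv B hJ) k j l s (by omega)
  simpa using this

/-- Values on the top antidiagonal. -/
lemma E_anti (hJ : ∀ u v, B (Cfsg.jordanTypeMatrix d F *ᵥ u) (Cfsg.jordanTypeMatrix d F *ᵥ v) = B u v)
    (j k : Fin t) (s l : ℕ) (h : s + l + 1 = d k) :
    B (bv d F j s) (bv d F k l) = (-1) ^ s * B (bv d F j 0) (bv d F k (d k - 1)) := by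
  induction s generalizing l with
  | zero =>
    have : l = d k - 1 := by omega
    rw [this]
    simp
  | succ s ih =>
    have h3 := E_rel B hJ j k s l
    rw [E_high B hJ j k (s + 1) (l + 1) (by omega), add_zero, ih (l + 1) (by omega)] at h3
    rw [pow_succ]
    linear_combination h3

/-- The top form. -/
noncomputable def Gam (d : Fin t → ℕ) (B : LinearMap.BilinForm F (Idx d → F)) : Matrix (Fin t) (Fin t) F :=
  fun k k' => B (bv d F k 0) (bv d F k' (d k' - 1))

lemma Gam_tri (hJ : ∀ u v, B (Cfsg.jordanTypeMatrix d F *ᵥ u) (Cfsg.jordanTypeMatrix d F *ᵥ v) = B u v)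
    (hd : ∀ k, 1 ≤ d k) : (Gam d B).BlockTriangular (fun k => OrderDual.toDual (d k)) := by
  intro k k' hlt
  have hlt' : d k < d k' := hlt
  exact E_high' B hJ k k' 0 _ (by have := hd k'; omega)

lemma Gam_det (hJ : ∀ u v, B (Cfsg.jordanTypeMatrix d F *ᵥ u) (Cfsg.jordanTypeMatrix d F *ᵥ v) = B u v)
    (hd : ∀ k, 1 ≤ d k) (hnd : ∀ v, (∀ u, B u v = 0) → v = 0) : (Gam d B).det ≠ 0 := by
  intro h0
  obtain ⟨w, hw, hw0⟩ := Matrix.exists_mulVec_eq_zero_iff.2 h0
  apply hw
  let y : Idx d → F := ∑ k', w k' • bv d F k' (d k' - 1)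
  have hy : ∀ k s, B (bv d F k s) y = 0 := by
    intro k s
    simp only [y, map_sum, map_smul, smul_eq_mul]
    by_cases hs : s = 0
    · subst hs
      have := congrFun hw0 k
      simp only [Matrix.mulVec, dotProduct, Gam, Pi.zero_apply] at this
      rw [← this]
      exact Finset.sum_congr rfl fun k' _ => mul_comm _ _
    · apply Finset.sum_eq_zero
      intro k' _
      rw [E_high B hJ k k' s _ (by have := hd k'; omega), mul_zero]
  have hy0 : y = 0 := by
    apply hnd
    intro u
    have hu : u = ∑ x : Idx d, u x • (Pi.single x 1 : Idx d → F) := by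
      funext z
      simp [Finset.sum_apply, Pi.single_apply]
    rw [hu]
    simp only [map_sum, map_smul, LinearMap.sum_apply, LinearMap.smul_apply, smul_eq_mul]
    apply Finset.sum_eq_zero
    rintro ⟨k, s⟩ _
    rw [bv_mk, hy, mul_zero]
  funext k'
  have hk' := hd k'
  have h1 := congrFun hy0 ⟨k', ⟨d k' - 1, by omega⟩⟩
  simp only [y, Finset.sum_apply, Pi.smul_apply, smul_eq_mul, Pi.zero_apply] at h1
  rw [Finset.sum_eq_single k'] at h1
  · rw [bv_of_lt (by omega), Pi.single_eq_same, mul_one] at h1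
    exact h1
  · intro k'' _ hne
    rw [bv_of_lt (by have := hd k''; omega), Pi.single_apply, if_neg, mul_zero]
    intro h2
    exact hne (congrArg (fun x : Idx d => x.1) h2).symm
  · simp

/-- A skew matrix with zero diagonal gives an alternating quadratic expression. -/
lemma alt_dot {ι : Type*} [Fintype ι] [DecidableEq ι] (A : Matrix ι ι F) (h0 : ∀ x, A x x = 0)
    (hs : ∀ x y, A y x = - A x y) (v : ι → F) : v ⬝ᵥ A *ᵥ v = 0 := by
  simp only [dotProduct, Matrix.mulVec, Finset.mul_sum]
  rw [← Finset.sum_product']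
  refine Finset.sum_involution (fun p _ => (p.2, p.1)) ?_ ?_ ?_ ?_
  · rintro ⟨x, y⟩ _
    simp only
    rw [hs x y]
    ring
  · rintro ⟨x, y⟩ _ hne heq
    simp only [Prod.mk.injEq] at heq
    apply hne
    simp only
    rw [heq.1, h0]
    ring
  · intro p _
    simp
  · intro p _
    rfl

/-- An invertible skew matrix with zero diagonal has even size. -/
lemma even_of_alt_matrix {ι : Type} [Fintype ι] [DecidableEq ι] (A : Matrix ι ι F) (hdet : A.det ≠ 0)
    (h0 : ∀ x, A x x = 0) (hs : ∀ x y, A y x = - A x y) : Even (Fintype.card ι) := by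
  have hB : (Matrix.toBilin' A).Nondegenerate :=
    LinearMap.BilinForm.nondegenerate_toBilin'_iff_det_ne_zero.2 hdet
  have hA : (Matrix.toBilin' A).IsAlt := by
    intro v
    rw [Matrix.toBilin'_apply']
    exact alt_dot A h0 hs v
  obtain ⟨j, hj⟩ := Cfsg.Agent.Lib.Classical.SpInv.even_of_alt _ hB hA
  rw [Module.finrank_fintype_fun_eq_card] at hj
  rw [hj]
  exact even_two_mul j

/-- The block of the top form of size `i`. -/
lemma block_even (hJ : ∀ u v, B (Cfsg.jordanTypeMatrix d F *ᵥ u) (Cfsg.jordanTypeMatrix d F *ᵥ v) = B u v)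
    (hd : ∀ k, 1 ≤ d k) (hnd : ∀ v, (∀ u, B u v = 0) → v = 0) (i : ℕ)
    (h0 : ∀ k, d k = i → B (bv d F k 0) (bv d F k (i - 1)) = 0)
    (hs : ∀ k k', d k = i → d k' = i → B (bv d F k' 0) (bv d F k (i - 1)) = - B (bv d F k 0) (bv d F k' (i - 1))) :
    Even (Finset.univ.filter (fun k : Fin t => d k = i)).card := by
  have hdet := Gam_det B hJ hd hnd
  rw [(Gam_tri B hJ hd).det, Finset.prod_ne_zero_iff] at hdet
  rw [← Fintype.card_subtype]
  by_cases hi : ∃ k, d k = i
  · obtain ⟨k₀, hk₀⟩ := hi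
    have hmem : OrderDual.toDual i ∈ Finset.univ.image (fun k => OrderDual.toDual (d k)) := by
      rw [Finset.mem_image]
      exact ⟨k₀, Finset.mem_univ _, by rw [hk₀]⟩
    have h1 := hdet _ hmem
    have h2 := even_of_alt_matrix _ h1 ?_ ?_
    · have e : {k // OrderDual.toDual (d k) = OrderDual.toDual i} ≃ {k // d k = i} :=
        Equiv.subtypeEquivRight (fun k => by simp)
      rw [← Fintype.card_congr e]
      exact h2
    · rintro ⟨k, hk⟩
      have hk' : d k = i := hk
      simp only [Matrix.toSquareBlock_def, Matrix.of_apply, Gam]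
      rw [hk']
      exact h0 k hk'
    · rintro ⟨k, hk⟩ ⟨k', hk'⟩
      have hk1 : d k = i := hk
      have hk2 : d k' = i := hk'
      simp only [Matrix.toSquareBlock_def, Matrix.of_apply, Gam]
      rw [hk1, hk2]
      exact hs k k' hk1 hk2
  · have : IsEmpty {k // d k = i} := ⟨fun k => hi ⟨k.1, k.2⟩⟩
    rw [Fintype.card_eq_zero]
    exact Even.zero

/-- Alternating invariant forms force odd blocks to come in pairs. -/
theorem even_of_alt_form (hJ : ∀ u v, B (Cfsg.jordanTypeMatrix d F *ᵥ u) (Cfsg.jordanTypeMatrix d F *ᵥ v) = B u v)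
    (hd : ∀ k, 1 ≤ d k) (hnd : ∀ v, (∀ u, B u v = 0) → v = 0) (hA : ∀ v, B v v = 0) (i : ℕ) (hi : Odd i) :
    Even (Finset.univ.filter (fun k : Fin t => d k = i)).card := by
  obtain ⟨r, hr⟩ := hi
  have hflip : ∀ u v, B u v = - B v u := by
    intro u v
    have := hA (u + v)
    simp only [map_add, LinearMap.add_apply, hA, zero_add, add_zero] at this
    linear_combination this
  apply block_even B hJ hd hnd
  · intro k hk
    have h1 := E_anti B hJ k k r r (by omega)
    rw [hA, hk] at h1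
    have hne : ((-1 : F)) ^ r ≠ 0 := pow_ne_zero _ (by simp)
    exact (mul_eq_zero.1 h1.symm).resolve_left hne
  · intro k k' hk hk'
    rw [hflip]
    have hi1 : i - 1 = 2 * r := by omega
    have h1 := E_anti B hJ k k' (2 * r) 0 (by omega)
    rw [hk', hi1] at h1
    rw [hi1, h1, pow_mul]
    simp

/-- Symmetric invariant forms force even blocks to come in pairs (odd characteristic). -/
theorem even_of_sym_form (hJ : ∀ u v, B (Cfsg.jordanTypeMatrix d F *ᵥ u) (Cfsg.jordanTypeMatrix d F *ᵥ v) = B u v)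
    (hd : ∀ k, 1 ≤ d k) (hnd : ∀ v, (∀ u, B u v = 0) → v = 0) (h2 : (2 : F) ≠ 0) (hS : ∀ u v, B u v = B v u)
    (i : ℕ) (hi : Even i) (hi0 : 0 < i) :
    Even (Finset.univ.filter (fun k : Fin t => d k = i)).card := by
  obtain ⟨r, hr⟩ := hi
  have hsk : ∀ k k', d k = i → d k' = i → B (bv d F k' 0) (bv d F k (i - 1)) = - B (bv d F k 0) (bv d F k' (i - 1)) := by
    intro k k' hk hk'
    rw [hS]
    have h1 := E_anti B hJ k k' (i - 1) 0 (by omega)
    rw [hk'] at h1
    rw [h1]
    have : i - 1 = 2 * (r - 1) + 1 := by omega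
    rw [this, pow_succ, pow_mul]
    simp
  apply block_even B hJ hd hnd
  · intro k hk
    have h3 := hsk k k hk hk
    have h4 : (2 : F) * B (bv d F k 0) (bv d F k (i - 1)) = 0 := by linear_combination h3
    exact (mul_eq_zero.1 h4).resolve_left h2
  · exact hsk

end forward

end Cfsg.Agent.Lib.JType
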