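import Mathlib
import Cfsg.Agent.Lib.JType.Forms

/-!
Existence of invariant forms for the unipotent matrix of a given Jordan type.
-/

set_option autoImplicit false

namespace Cfsg.Agent.Lib.JType

open Matrix

/-- Generalised binomial coefficients, zero for negative lower index. -/
def coZ (a n : ℤ) : ℤ := if n < 0 then 0 else Ring.choose a n.toNat

lemma coZ_neg {a n : ℤ} (h : n < 0) : coZ a n = 0 := by
  rw [coZ, if_pos h]

lemma coZ_zero (a : ℤ) : coZ a 0 = 1 := by
  rw [coZ, if_neg (by omega)]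
  simp [Ring.choose_zero_right]

lemma coZ_pascal (a n : ℤ) : coZ (a + 1) n = coZ a (n - 1) + coZ a n := by
  rcases lt_trichotomy n 0 with h | h | h
  · rw [coZ_neg h, coZ_neg h, coZ_neg (by omega), add_zero]
  · subst h
    rw [coZ_zero, coZ_zero, coZ_neg (by omega), zero_add]
  · obtain ⟨m, rfl⟩ : ∃ m : ℕ, n = (m : ℤ) + 1 := ⟨(n - 1).toNat, by omega⟩
    rw [coZ, coZ, coZ, if_neg (by omega), if_neg (by omega), if_neg (by omega)]
    have e1 : ((m : ℤ) + 1).toNat = m + 1 := by omega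
    have e2 : ((m : ℤ) + 1 - 1).toNat = m := by omega
    rw [e1, e2, Ring.choose_succ_succ]

lemma coZ_refl (a : ℤ) (n : ℕ) : coZ a n = (-1) ^ n * coZ ((n : ℤ) - a - 1) n := by
  rw [coZ, coZ, if_neg (by omega), if_neg (by omega), Int.toNat_natCast]
  have h := Ring.choose_neg (-a) n
  rw [neg_neg] at h
  rw [h, Units.smul_def, smul_eq_mul]
  have e : -a + (n : ℤ) - 1 = (n : ℤ) - a - 1 := by ring
  rw [e]
  congr 1

lemma coZ_lt {a n : ℤ} (h0 : 0 ≤ a) (h : a < n) : coZ a n = 0 := by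
  rw [coZ, if_neg (by omega)]
  obtain ⟨a', rfl⟩ : ∃ a' : ℕ, a = (a' : ℤ) := ⟨a.toNat, by omega⟩
  rw [Ring.choose_natCast, Nat.choose_eq_zero_of_lt (by omega)]
  simp

/-- The base matrix entries. -/
def HZ (D : ℕ) (c : ℤ) (l m : ℕ) : ℤ := (-1) ^ m * coZ (c - m) ((D : ℤ) - 1 - l - m)

lemma HZ_high {D : ℕ} (c : ℤ) {l m : ℕ} (h : D ≤ l + m) : HZ D c l m = 0 := by
  rw [HZ, coZ_neg (by omega), mul_zero]

lemma HZ_rel (D : ℕ) (c : ℤ) (l m : ℕ) :
    HZ D c l (m + 1) + HZ D c (l + 1) m + HZ D c (l + 1) (m + 1) = 0 := by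
  simp only [HZ]
  have h := coZ_pascal (c - (m : ℤ) - 1) ((D : ℤ) - 1 - l - m - 1)
  have e1 : c - (m : ℤ) - 1 + 1 = c - m := by ring
  rw [e1] at h
  have e2 : c - ((m + 1 : ℕ) : ℤ) = c - (m : ℤ) - 1 := by push_cast; ring
  have e3 : (D : ℤ) - 1 - (l : ℤ) - ((m + 1 : ℕ) : ℤ) = (D : ℤ) - 1 - l - m - 1 := by push_cast; ring
  have e4 : (D : ℤ) - 1 - ((l + 1 : ℕ) : ℤ) - (m : ℤ) = (D : ℤ) - 1 - l - m - 1 := by push_cast; ring
  have e5 : (D : ℤ) - 1 - ((l + 1 : ℕ) : ℤ) - ((m + 1 : ℕ) : ℤ) = (D : ℤ) - 1 - l - m - 1 - 1 := by push_cast; ring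
  rw [e2, e3, e4, e5, h, pow_succ]
  ring

lemma HZ_top {D : ℕ} (c : ℤ) {l m : ℕ} (h : l + m + 1 = D) : HZ D c l m = (-1) ^ m := by
  have e : (D : ℤ) - 1 - l - m = 0 := by omega
  rw [HZ, e, coZ_zero, mul_one]

/-- The alternating special case: skew-symmetry. -/
lemma HZ_skew (r l m : ℕ) :
    HZ (2 * r) ((r : ℤ) - 1) m l = - HZ (2 * r) ((r : ℤ) - 1) l m := by
  by_cases h : 2 * r ≤ l + m
  · rw [HZ_high _ h, HZ_high _ (by omega), neg_zero]
  · obtain ⟨n, hn⟩ : ∃ n : ℕ, (n : ℤ) = ((2 * r : ℕ) : ℤ) - 1 - l - m := ⟨2 * r - 1 - l - m, by omega⟩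
    have hn2 : ((2 * r : ℕ) : ℤ) - 1 - m - l = n := by omega
    simp only [HZ]
    rw [hn2, ← hn, coZ_refl (((r : ℤ) - 1) - m) n]
    have e : (n : ℤ) - ((r : ℤ) - 1 - m) - 1 = (r : ℤ) - 1 - l := by omega
    rw [e]
    have hpar : (-1 : ℤ) ^ (m + n) = - (-1) ^ l := by
      have : m + n + l + 1 = 2 * r := by omega
      have h2 : (-1 : ℤ) ^ (m + n + l + 1) = 1 := by rw [this, pow_mul]; simp
      have h3 : (-1 : ℤ) ^ l * (-1) ^ l = 1 := by rw [← pow_add, ← two_mul, pow_mul]; simp
      rw [pow_succ, pow_add] at h2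
      have h4 : (-1 : ℤ) ^ (m + n) = (-1 : ℤ) ^ (m + n) * ((-1) ^ l * (-1) ^ l) := by rw [h3, mul_one]
      rw [h4]
      linear_combination ((-1 : ℤ) ^ l) * (-h2)
    rw [← mul_assoc, ← pow_add, hpar]
    ring

/-- The alternating special case: zero diagonal. -/
lemma HZ_diag (r l : ℕ) : HZ (2 * r) ((r : ℤ) - 1) l l = 0 := by
  rw [HZ]
  by_cases h : l < r
  · rw [coZ_lt (by omega) (by push_cast; omega), mul_zero]
  · rw [coZ_neg (by push_cast; omega), mul_zero]

variable {F : Type*} [Field F] {t : ℕ} {d : Fin t → ℕ}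

/-- A family of entries on a block of size `D`. -/
structure Piece (D : ℕ) (P : ℕ → ℕ → F) : Prop where
  high : ∀ l m, D ≤ l + m → P l m = 0
  rel : ∀ l m, P l (m + 1) + P (l + 1) m + P (l + 1) (m + 1) = 0
  top : ∀ l m, l + m + 1 = D → P l m ≠ 0

lemma piece_HZ (D : ℕ) (c : ℤ) : Piece D (fun l m => (HZ D c l m : F)) where
  high l m h := by
    rw [HZ_high c h, Int.cast_zero]
  rel l m := by
    have := congrArg (Int.cast : ℤ → F) (HZ_rel D c l m)
    push_cast at this
    exact this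
  top l m h := by
    rw [HZ_top c h]
    push_cast
    exact pow_ne_zero _ (by simp)

lemma Piece.flip {D : ℕ} {P : ℕ → ℕ → F} (h : Piece D P) : Piece D (fun l m => P m l) where
  high l m hm := h.high m l (by omega)
  rel l m := by
    have := h.rel m l
    linear_combination this
  top l m hm := h.top m l (by omega)

lemma Piece.smul {D : ℕ} {P : ℕ → ℕ → F} (h : Piece D P) {ε : F} (hε : ε ≠ 0) : Piece D (fun l m => ε * P l m) where
  high l m hm := by
    rw [h.high l m hm, mul_zero]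
  rel l m := by
    have := h.rel l m
    linear_combination ε * this
  top l m hm := mul_ne_zero hε (h.top l m hm)

lemma exists_fpf {ι : Type*} [Fintype ι] (h : Even (Fintype.card ι)) :
    ∃ σ : ι → ι, (∀ x, σ (σ x) = x) ∧ ∀ x, σ x ≠ x := by
  obtain ⟨c, hc⟩ := h
  have e : ι ≃ Fin c ⊕ Fin c := Fintype.equivOfCardEq (by simp [hc])
  refine ⟨fun x => e.symm (e x).swap, ?_, ?_⟩
  · intro x
    simp
  · intro x hx
    have h1 : (e x).swap = e x := by
      have := congrArg e hx
      simpa using this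
    rcases he : e x with a | a <;> rw [he] at h1 <;> simp at h1

lemma exists_tau (Bad : ℕ → Prop)
    (hpar : ∀ i, Bad i → Even (Finset.univ.filter (fun k : Fin t => d k = i)).card) :
    ∃ τ : Fin t → Fin t, (∀ k, τ (τ k) = k) ∧ (∀ k, d (τ k) = d k) ∧ ∀ k, Bad (d k) → τ k ≠ k := by
  classical
  have h1 : ∀ i, ∃ σ : {k // d k = i} → {k // d k = i}, (∀ x, σ (σ x) = x) ∧ (Bad i → ∀ x, σ x ≠ x) := by
    intro i
    by_cases hb : Bad i
    · have h2 := hpar i hb
      rw [← Fintype.card_subtype] at h2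
      obtain ⟨σ, h3, h4⟩ := exists_fpf h2
      exact ⟨σ, h3, fun _ => h4⟩
    · exact ⟨id, fun _ => rfl, fun h => absurd h hb⟩
  choose σ hσ1 hσ2 using h1
  refine ⟨fun k => (σ (d k) ⟨k, rfl⟩).1, ?_, ?_, ?_⟩
  · intro k
    have key : ∀ (i : ℕ) (x : {k // d k = i}), (σ (d x.1) ⟨x.1, rfl⟩).1 = (σ i x).1 := by
      rintro i ⟨x, rfl⟩
      rfl
    simp only
    rw [key (d k) (σ (d k) ⟨k, rfl⟩), hσ1]
  · intro k
    exact (σ (d k) ⟨k, rfl⟩).2
  · intro k hb h2
    exact hσ2 (d k) hb ⟨k, rfl⟩ (Subtype.ext h2)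

/-- Bilinear forms on coordinates agree if they agree on the basis. -/
lemma bilin_ext (B₁ B₂ : LinearMap.BilinForm F (Idx d → F))
    (h : ∀ j k s l, B₁ (bv d F j s) (bv d F k l) = B₂ (bv d F j s) (bv d F k l)) : B₁ = B₂ := by
  have hu : ∀ u : Idx d → F, u = ∑ x : Idx d, u x • (Pi.single x 1 : Idx d → F) := by
    intro u
    funext z
    simp [Finset.sum_apply, Pi.single_apply]
  apply LinearMap.ext
  intro u
  apply LinearMap.ext
  intro v
  rw [hu u, hu v]
  simp only [map_sum, map_smul, LinearMap.sum_apply, LinearMap.smul_apply, smul_eq_mul]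
  apply Finset.sum_congr rfl
  rintro ⟨j, s⟩ _
  congr 1
  apply Finset.sum_congr rfl
  rintro ⟨k, l⟩ _
  rw [bv_mk, bv_mk, h]

/-- Invariant forms with prescribed symmetry. -/
theorem exists_inv_form (ε : F) (hε : ε * ε = 1) (Bad : ℕ → Prop) (Z : Prop)
    (hpar : ∀ i, Bad i → Even (Finset.univ.filter (fun k : Fin t => d k = i)).card)
    (hspec : ∀ D, 1 ≤ D → ¬ Bad D → ∃ P : ℕ → ℕ → F, Piece D P ∧ (∀ l m, P m l = ε * P l m) ∧ (Z → ∀ l, P l l = 0))
    (hbase : ∀ D, ∃ P : ℕ → ℕ → F, Piece D P) (hd : ∀ k, 1 ≤ d k) :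
    ∃ G : Matrix (Idx d) (Idx d) F, G.det ≠ 0 ∧ (∀ x y, G y x = ε * G x y) ∧ (Z → ∀ x, G x x = 0) ∧
      ∀ u v, Matrix.toBilin' G (Cfsg.jordanTypeMatrix d F *ᵥ u) (Cfsg.jordanTypeMatrix d F *ᵥ v) = Matrix.toBilin' G u v := by
  classical
  have hε0 : ε ≠ 0 := by
    rintro rfl
    simp at hε
  obtain ⟨τ, hτ1, hτ2, hτ3⟩ := exists_tau (d := d) Bad hpar
  choose Pb hPb using hbase
  have hsp : ∀ k, τ k = k → ∃ P : ℕ → ℕ → F, Piece (d k) P ∧ (∀ l m, P m l = ε * P l m) ∧ (Z → ∀ l, P l l = 0) := by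
    intro k hk
    apply hspec (d k) (hd k)
    intro hb
    exact hτ3 k hb hk
  choose Ps hPs1 hPs2 hPs3 using hsp
  let P : Fin t → ℕ → ℕ → F := fun k =>
    if h : τ k = k then Ps k h else if k < τ k then Pb (d k) else fun l m => ε * Pb (d k) m l
  have hP : ∀ k, Piece (d k) (P k) := by
    intro k
    simp only [P]
    split_ifs with h1 h2
    · exact hPs1 k h1
    · exact hPb _
    · exact (hPb _).flip.smul hε0
  have hPsym : ∀ k l m, P (τ k) m l = ε * P k l m := by
    intro k l m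
    by_cases h1 : τ k = k
    · rw [h1]
      simp only [P]
      rw [dif_pos h1]
      exact hPs2 k h1 l m
    · have h2 : τ (τ k) ≠ τ k := by
        rw [hτ1]
        exact fun h => h1 h.symm
      simp only [P]
      rw [dif_neg h1, dif_neg h2, hτ1, hτ2]
      by_cases h3 : k < τ k
      · rw [if_pos h3, if_neg (by omega)]
      · have h4 : τ k < k := by
          have : (k : ℕ) ≠ τ k := fun h => h1 (Fin.ext h).symm
          omega
        rw [if_neg h3, if_pos h4]
        rw [← mul_assoc, hε, one_mul]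
  let G : Matrix (Idx d) (Idx d) F := fun x y => if y.1 = τ x.1 then P x.1 x.2 y.2 else 0
  have hE : ∀ j k s l, Matrix.toBilin' G (bv d F j s) (bv d F k l) = if k = τ j then P j s l else 0 := by
    intro j k s l
    by_cases hs : s < d j
    · by_cases hl : l < d k
      · rw [bv_of_lt hs, bv_of_lt hl, Matrix.toBilin'_single]
      · rw [bv_of_le (show d k ≤ l by omega), map_zero]
        split_ifs with h1
        · rw [(hP j).high]
          rw [h1, hτ2] at hl
          omega
        · rfl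
    · rw [bv_of_le (show d j ≤ s by omega), map_zero, LinearMap.zero_apply]
      split_ifs with h1
      · rw [(hP j).high]
        omega
      · rfl
  have hinv : ∀ u v, Matrix.toBilin' G (Cfsg.jordanTypeMatrix d F *ᵥ u) (Cfsg.jordanTypeMatrix d F *ᵥ v) = Matrix.toBilin' G u v := by
    have h1 : (Matrix.toBilin' G).compl₁₂ (Matrix.mulVecLin (Cfsg.jordanTypeMatrix d F)) (Matrix.mulVecLin (Cfsg.jordanTypeMatrix d F)) = Matrix.toBilin' G := by
      apply bilin_ext
      intro j k s l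
      simp only [LinearMap.compl₁₂_apply, Matrix.mulVecLin_apply]
      rw [J_bv, J_bv]
      simp only [map_add, LinearMap.add_apply, hE]
      split_ifs with h2
      · have := (hP j).rel s l
        linear_combination this
      · simp
    intro u v
    have h2 := congrArg (fun B => B u v) h1
    simpa [LinearMap.compl₁₂_apply] using h2
  refine ⟨G, ?_, ?_, ?_, hinv⟩
  · intro h0
    obtain ⟨v, hv, hv0⟩ := Matrix.exists_mulVec_eq_zero_iff.2 h0
    apply hv
    have hzero : ∀ (c : ℕ) (k : Fin t) (l : Fin (d k)), (l : ℕ) = c → v ⟨k, l⟩ = 0 := by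
      intro c
      induction c using Nat.strong_induction_on with
      | _ c ih =>
        intro k l hl
        have hl2 := l.2
        have hj : d (τ k) = d k := hτ2 k
        have hs : d k - 1 - l < d (τ k) := by omega
        have h1 := congrFun hv0 ⟨τ k, ⟨d k - 1 - l, hs⟩⟩
        simp only [Matrix.mulVec, dotProduct, Pi.zero_apply] at h1
        rw [Fintype.sum_sigma, Finset.sum_eq_single k] at h1
        · rw [Finset.sum_eq_single l] at h1
          · simp only [G, hτ1, if_true] at h1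
            have h2 := (hP (τ k)).top (d k - 1 - l) l (by omega)
            exact (mul_eq_zero.1 h1).resolve_left h2
          · intro l' _ hne
            have hne' : (l' : ℕ) ≠ l := fun h => hne (Fin.ext h)
            by_cases h3 : (l' : ℕ) < l
            · rw [ih l' (by omega) k l' rfl, mul_zero]
            · simp only [G, hτ1, if_true]
              rw [(hP (τ k)).high _ _ (by have := l'.2; omega), zero_mul]
          · simp
        · intro k' _ hne
          apply Finset.sum_eq_zero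
          intro l' _
          simp only [G, hτ1, if_neg hne, zero_mul]
        · simp
    funext ⟨k, l⟩
    exact hzero l k l rfl
  · rintro ⟨j, s⟩ ⟨k, l⟩
    simp only [G]
    by_cases h1 : k = τ j
    · subst h1
      rw [if_pos rfl, if_pos (hτ1 j).symm]
      exact hPsym j s l
    · rw [if_neg h1, if_neg, mul_zero]
      rintro rfl
      exact h1 (hτ1 k).symm
  · intro hZ
    rintro ⟨j, s⟩
    simp only [G]
    split_ifs with h1
    · simp only [P]
      rw [dif_pos h1.symm]
      exact hPs3 j h1.symm hZ s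
    · rfl

/-- Alternating invariant forms exist when odd blocks come in pairs. -/
theorem exists_alt_form (hd : ∀ k, 1 ≤ d k)
    (hpar : ∀ i, Odd i → Even (Finset.univ.filter (fun k : Fin t => d k = i)).card) :
    ∃ G : Matrix (Idx d) (Idx d) F, G.det ≠ 0 ∧ (∀ x y, G y x = - G x y) ∧ (∀ x, G x x = 0) ∧
      ∀ u v, Matrix.toBilin' G (Cfsg.jordanTypeMatrix d F *ᵥ u) (Cfsg.jordanTypeMatrix d F *ᵥ v) = Matrix.toBilin' G u v := by
  obtain ⟨G, h1, h2, h3, h4⟩ := exists_inv_form (F := F) (d := d) (-1) (by simp) Odd True hpar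
    (by
      intro D _ hD
      obtain ⟨r, hr⟩ := Nat.not_odd_iff_even.1 hD
      have hr' : D = 2 * r := by omega
      subst hr'
      refine ⟨_, piece_HZ (2 * r) ((r : ℤ) - 1), ?_, ?_⟩
      · intro l m
        rw [HZ_skew]
        push_cast
        ring
      · intro _ l
        rw [HZ_diag, Int.cast_zero])
    (fun D => ⟨_, piece_HZ D 0⟩) hd
  refine ⟨G, h1, ?_, h3 trivial, h4⟩
  intro x y
  rw [h2, neg_one_mul]

/-- Symmetric invariant forms exist in odd characteristic when even blocks come in pairs. -/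
theorem exists_sym_form (h2 : (2 : F) ≠ 0) (hd : ∀ k, 1 ≤ d k)
    (hpar : ∀ i, Even i → 0 < i → Even (Finset.univ.filter (fun k : Fin t => d k = i)).card) :
    ∃ G : Matrix (Idx d) (Idx d) F, G.det ≠ 0 ∧ (∀ x y, G y x = G x y) ∧
      ∀ u v, Matrix.toBilin' G (Cfsg.jordanTypeMatrix d F *ᵥ u) (Cfsg.jordanTypeMatrix d F *ᵥ v) = Matrix.toBilin' G u v := by
  obtain ⟨G, h1, h3, -, h4⟩ := exists_inv_form (F := F) (d := d) 1 (by simp) (fun i => Even i ∧ 0 < i) False
    (fun i hi => hpar i hi.1 hi.2)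
    (by
      intro D hD1 hD
      have hodd : Odd D := by
        rw [← Nat.not_even_iff_odd]
        exact fun h => hD ⟨h, hD1⟩
      have hp := piece_HZ (F := F) D 0
      refine ⟨fun l m => (HZ D 0 l m : F) + (HZ D 0 m l : F), ⟨?_, ?_, ?_⟩, ?_, ?_⟩
      · intro l m hlm
        rw [hp.high l m hlm, hp.flip.high l m hlm, add_zero]
      · intro l m
        have h5 := hp.rel l m
        have h6 := hp.flip.rel l m
        linear_combination h5 + h6
      · intro l m hlm
        rw [HZ_top 0 hlm, HZ_top 0 (by omega : m + l + 1 = D)]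
        push_cast
        have hpar2 : (-1 : F) ^ l = (-1) ^ m := by
          have : Even (l + m) := by
            obtain ⟨c, hc⟩ := hodd
            exact ⟨c, by omega⟩
          have h7 : (-1 : F) ^ (l + m) = 1 := this.neg_one_pow
          have h8 : (-1 : F) ^ m * (-1) ^ m = 1 := by rw [← pow_add, ← two_mul, pow_mul]; simp
          rw [pow_add] at h7
          linear_combination ((-1 : F) ^ m) * h7 - ((-1 : F) ^ l) * h8
        rw [hpar2, ← two_mul]
        exact mul_ne_zero h2 (pow_ne_zero _ (by simp))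
      · intro l m
        ring
      · exact False.elim)
    (fun D => ⟨_, piece_HZ D 0⟩) hd
  refine ⟨G, h1, ?_, h4⟩
  intro x y
  rw [h3, one_mul]

end Cfsg.Agent.Lib.JType
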