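import Mathlib
import Cfsg.Agent.Lib.JType.Exist

/-!
Conjugates of the Jordan matrix and intertwining linear equivalences.
-/

set_option autoImplicit false

namespace Cfsg.Agent.Lib.JType

open Matrix

variable {F : Type*} [Field F] {t : ℕ} {d : Fin t → ℕ} {ι : Type*} [Fintype ι] [DecidableEq ι]

lemma reindex_mulVec (e : Idx d ≃ ι) (u : Idx d → F) :
    (Matrix.reindex e e (Cfsg.jordanTypeMatrix d F)) *ᵥ (u ∘ e.symm) =
      (Cfsg.jordanTypeMatrix d F *ᵥ u) ∘ e.symm := by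
  rw [Matrix.reindex_apply, Matrix.submatrix_mulVec_equiv]
  congr 2
  funext x
  simp

/-- A conjugator gives an intertwiner. -/
lemma exists_psi (e : Idx d ≃ ι) {A : Matrix ι ι F}
    (h : IsConj (Matrix.reindex e e (Cfsg.jordanTypeMatrix d F)) A) :
    ∃ ψ : (Idx d → F) ≃ₗ[F] (ι → F), ∀ u, ψ (Cfsg.jordanTypeMatrix d F *ᵥ u) = A *ᵥ ψ u := by
  obtain ⟨c, hc⟩ := h
  have hc1 : (c : Matrix ι ι F) * Matrix.reindex e e (Cfsg.jordanTypeMatrix d F) = A * (c : Matrix ι ι F) := hc.eq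
  refine ⟨{ toFun := fun u => (c : Matrix ι ι F) *ᵥ (u ∘ e.symm)
            invFun := fun w => ((↑c⁻¹ : Matrix ι ι F) *ᵥ w) ∘ e
            map_add' := ?_
            map_smul' := ?_
            left_inv := ?_
            right_inv := ?_ }, ?_⟩
  · intro u v
    rw [← Matrix.mulVec_add]
    rfl
  · intro a u
    rw [RingHom.id_apply, ← Matrix.mulVec_smul]
    rfl
  · intro u
    funext x
    simp [Matrix.mulVec_mulVec, Function.comp]
  · intro w
    have : (fun x => ((↑c⁻¹ : Matrix ι ι F) *ᵥ w) (e (e.symm x))) = (↑c⁻¹ : Matrix ι ι F) *ᵥ w := by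
      funext x
      simp
    simp only [Function.comp_def]
    rw [this, Matrix.mulVec_mulVec]
    simp
  · intro u
    show (c : Matrix ι ι F) *ᵥ ((Cfsg.jordanTypeMatrix d F *ᵥ u) ∘ e.symm) = A *ᵥ ((c : Matrix ι ι F) *ᵥ (u ∘ e.symm))
    rw [← reindex_mulVec, Matrix.mulVec_mulVec, Matrix.mulVec_mulVec, hc1]

/-- An intertwiner gives a conjugator. -/
lemma isConj_of_psi (e : Idx d ≃ ι) {A : Matrix ι ι F} (ψ : (Idx d → F) ≃ₗ[F] (ι → F))
    (hψ : ∀ u, ψ (Cfsg.jordanTypeMatrix d F *ᵥ u) = A *ᵥ ψ u) :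
    IsConj (Matrix.reindex e e (Cfsg.jordanTypeMatrix d F)) A := by
  let ρ : (Idx d → F) ≃ₗ[F] (ι → F) := LinearEquiv.funCongrLeft F F e.symm
  have hρ : ∀ u, ρ u = u ∘ e.symm := fun u => rfl
  let θ : (ι → F) ≃ₗ[F] (ι → F) := ρ.symm ≪≫ₗ ψ
  have hθ1 : ∀ w, θ w = ψ (ρ.symm w) := fun w => rfl
  let c : Matrix ι ι F := LinearMap.toMatrix' θ.toLinearMap
  let c' : Matrix ι ι F := LinearMap.toMatrix' θ.symm.toLinearMap
  have hc : c * c' = 1 := by
    simp only [c, c']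
    rw [← LinearMap.toMatrix'_comp, ← LinearMap.toMatrix'_id]
    congr 1
    ext1 x
    simp
  have hc2 : c' * c = 1 := by
    simp only [c, c']
    rw [← LinearMap.toMatrix'_comp, ← LinearMap.toMatrix'_id]
    congr 1
    ext1 x
    simp
  refine ⟨⟨c, c', hc, hc2⟩, ?_⟩
  show c * _ = A * c
  apply Matrix.toLin'.injective
  apply LinearMap.ext
  intro w
  rw [Matrix.toLin'_apply, Matrix.toLin'_apply, ← Matrix.mulVec_mulVec, ← Matrix.mulVec_mulVec]
  have h1 : ∀ x, c *ᵥ x = θ x := by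
    intro x
    simp only [c]
    rw [LinearMap.toMatrix'_mulVec]
    rfl
  rw [h1, h1, hθ1, hθ1, ← hψ]
  congr 1
  apply ρ.injective
  rw [LinearEquiv.apply_symm_apply, hρ, ← reindex_mulVec, ← hρ, LinearEquiv.apply_symm_apply]

lemma J_isUnit : IsUnit (Cfsg.jordanTypeMatrix d F) := by
  have h : Cfsg.jordanTypeMatrix d F = 1 + NN F d := by simp [NN]
  rw [h]
  exact IsNilpotent.isUnit_one_add ⟨_, NN_nilp d⟩

end Cfsg.Agent.Lib.JType
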