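import Mathlib
import Cfsg.Agent.Lib.JType.Conj

/-!
In characteristic two, an isometry of an alternating form over a finite field preserves a quadratic form
with that polar form.
-/

set_option autoImplicit false

namespace Cfsg.Agent.Lib.JType

open Matrix

variable {F : Type*} [Field F] [Fintype F] [CharP F 2]

lemma two_zero : (2 : F) = 0 := by
  exact_mod_cast CharP.cast_eq_zero F 2

/-- A square root in a finite field of characteristic two. -/
noncomputable def rt2 (F : Type*) [Field F] [Fintype F] [CharP F 2] : F ≃+* F :=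
  haveI : ExpChar F 2 := ExpChar.prime Nat.prime_two
  (frobeniusEquiv F 2).symm

lemma rt2_sq (a : F) : rt2 F a * rt2 F a = a := by
  haveI : ExpChar F 2 := ExpChar.prime Nat.prime_two
  have h := (frobeniusEquiv F 2).apply_symm_apply a
  rw [frobeniusEquiv_apply, frobenius_def, pow_two] at h
  exact h

lemma rt2_mul_self (a : F) : rt2 F (a * a) = a := by
  have h : rt2 F (a * a) * rt2 F (a * a) = a * a := rt2_sq _
  have h2 : (rt2 F (a * a) - a) * (rt2 F (a * a) - a) = 0 := by
    have h3 : (2 : F) = 0 := two_zero
    linear_combination h + (a * a - rt2 F (a * a) * a) * h3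
  have h4 := mul_self_eq_zero.1 h2
  exact sub_eq_zero.1 h4

variable {n : ℕ}

/-- Every alternating form is the polar form of a quadratic form. -/
lemma exists_polar (B : LinearMap.BilinForm F (Fin n → F)) (hA : ∀ v, B v v = 0) :
    ∃ Q : QuadraticForm F (Fin n → F), QuadraticMap.polarBilin Q = B := by
  classical
  have h2 : (2 : F) = 0 := two_zero
  have hneg : ∀ a : F, -a = a := by
    intro a
    linear_combination -a * h2
  have hflip : ∀ u v, B v u = B u v := by
    intro u v
    have := hA (u + v)
    simp only [map_add, LinearMap.add_apply, hA, zero_add, add_zero] at this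
    rw [← hneg (B u v)]
    linear_combination this
  let U : Matrix (Fin n) (Fin n) F := fun x y => if x < y then B (Pi.single x 1) (Pi.single y 1) else 0
  refine ⟨LinearMap.BilinMap.toQuadraticMap (Matrix.toBilin' U), ?_⟩
  have hext : ∀ B₁ B₂ : LinearMap.BilinForm F (Fin n → F),
      (∀ x y, B₁ (Pi.single x 1) (Pi.single y 1) = B₂ (Pi.single x 1) (Pi.single y 1)) → B₁ = B₂ := by
    intro B₁ B₂ h
    have hu : ∀ u : Fin n → F, u = ∑ x : Fin n, u x • (Pi.single x 1 : Fin n → F) := by
      intro u
      funext z
      simp [Finset.sum_apply, Pi.single_apply]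
    apply LinearMap.ext
    intro u
    apply LinearMap.ext
    intro v
    rw [hu u, hu v]
    simp only [map_sum, map_smul, LinearMap.sum_apply, LinearMap.smul_apply, smul_eq_mul]
    apply Finset.sum_congr rfl
    intro x _
    congr 1
    apply Finset.sum_congr rfl
    intro y _
    rw [h]
  apply hext
  intro x y
  show (Matrix.toBilin' U) (Pi.single x 1 + Pi.single y 1) (Pi.single x 1 + Pi.single y 1) -
    (Matrix.toBilin' U) (Pi.single x 1) (Pi.single x 1) - (Matrix.toBilin' U) (Pi.single y 1) (Pi.single y 1) = _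
  simp only [map_add, LinearMap.add_apply, Matrix.toBilin'_single]
  have e : ∀ a b c d' : F, a + b + (c + d') - a - d' = c + b := by
    intros
    ring
  rw [e]
  rcases lt_trichotomy x y with h | h | h
  · simp only [U]
    rw [if_pos h, if_neg (lt_asymm h), add_zero]
  · subst h
    simp only [U]
    simp [hA]
  · simp only [U]
    rw [if_neg (lt_asymm h), if_pos h, zero_add, hflip]

/-- Dye's lemma: isometries of an alternating form preserve a quadratic form with that polar form. -/
theorem exists_inv_quad (B : LinearMap.BilinForm F (Fin n → F)) (hA : ∀ v, B v v = 0)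
    (X : Matrix (Fin n) (Fin n) F) (hX : ∀ u v, B (X *ᵥ u) (X *ᵥ v) = B u v) :
    ∃ Q : QuadraticForm F (Fin n → F), QuadraticMap.polarBilin Q = B ∧ ∀ v, Q (X *ᵥ v) = Q v := by
  classical
  have h2 : (2 : F) = 0 := two_zero
  obtain ⟨Q₀, hQ₀⟩ := exists_polar B hA
  have hadd : ∀ x y, Q₀ (x + y) = Q₀ x + Q₀ y + B x y := by
    intro x y
    have : QuadraticMap.polarBilin Q₀ x y = B x y := by rw [hQ₀]
    have h3 : QuadraticMap.polarBilin Q₀ x y = Q₀ (x + y) - Q₀ x - Q₀ y := rfl
    rw [h3] at this
    linear_combination this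
  let R : (Fin n → F) → F := fun v => Q₀ (X *ᵥ v) - Q₀ v
  have hRadd : ∀ x y, R (x + y) = R x + R y := by
    intro x y
    simp only [R]
    rw [Matrix.mulVec_add, hadd, hadd, hX]
    ring
  have hRsmul : ∀ (a : F) x, R (a • x) = a * a * R x := by
    intro a x
    simp only [R]
    rw [Matrix.mulVec_smul, QuadraticMap.map_smul, QuadraticMap.map_smul]
    simp only [smul_eq_mul]
    ring
  let ℓ : Module.Dual F (Fin n → F) :=
    { toFun := fun v => rt2 F (R v)
      map_add' := by
        intro x y
        rw [hRadd, map_add]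
      map_smul' := by
        intro a x
        rw [hRsmul, map_mul, rt2_mul_self, RingHom.id_apply, smul_eq_mul] }
  have hℓ : ∀ v, ℓ v * ℓ v = R v := fun v => rt2_sq _
  let N : (Fin n → F) →ₗ[F] (Fin n → F) := Matrix.mulVecLin X - LinearMap.id
  have hN : ∀ v, N v = X *ᵥ v - v := fun v => rfl
  have hmem : ℓ ∈ (LinearMap.ker N).dualAnnihilator := by
    rw [Submodule.mem_dualAnnihilator]
    intro v hv
    have h3 : X *ᵥ v = v := by
      have := LinearMap.mem_ker.1 hv
      rw [hN] at this
      exact sub_eq_zero.1 this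
    show rt2 F (Q₀ (X *ᵥ v) - Q₀ v) = 0
    rw [h3, sub_self, map_zero]
  rw [← LinearMap.range_dualMap_eq_dualAnnihilator_ker] at hmem
  obtain ⟨h, hh⟩ := hmem
  have hh' : ∀ v, h (X *ᵥ v - v) = ℓ v := by
    intro v
    have := congrArg (fun f => f v) hh
    simpa [hN] using this
  refine ⟨Q₀ + QuadraticMap.linMulLin h h, ?_, ?_⟩
  · apply LinearMap.ext
    intro u
    apply LinearMap.ext
    intro v
    show (Q₀ + QuadraticMap.linMulLin h h) (u + v) - (Q₀ + QuadraticMap.linMulLin h h) u -
      (Q₀ + QuadraticMap.linMulLin h h) v = B u v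
    simp only [QuadraticMap.add_apply, QuadraticMap.linMulLin_apply, hadd, map_add]
    linear_combination (h u * h v) * h2
  · intro v
    simp only [QuadraticMap.add_apply, QuadraticMap.linMulLin_apply]
    have h3 := hh' v
    rw [map_sub] at h3
    have h4 := hℓ v
    have h5 : R v = Q₀ (X *ᵥ v) - Q₀ v := rfl
    have h6 : h (X *ᵥ v) = h v + ℓ v := by linear_combination h3
    rw [h6]
    rw [h5] at h4
    have h7 : Q₀ (X *ᵥ v) = Q₀ v + ℓ v * ℓ v := by linear_combination -h4
    rw [h7]
    linear_combination (ℓ v * ℓ v + h v * ℓ v) * h2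

end Cfsg.Agent.Lib.JType
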