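import Mathlib
import Cfsg.Agent.Lib.UConj.Real
import Cfsg.Agent.Lib.JType.Forms

/-!
Conjugate transposes over the field with `q ^ 2` elements for arbitrary index types, counting fixed points of
semilinear involutions, and norms of Hermitian matrices.
-/

set_option autoImplicit false

namespace Cfsg.Agent.Lib.JType

open Matrix Cfsg.Agent.Lib.Classical Cfsg.Agent.Lib.KS2.IsoCl Cfsg.Agent.Lib.UConj

variable {K : Type*} [Field K] [Fintype K] {q : ℕ}

/-- The conjugate transpose. -/
def adj (hF : Fintype.card K = q ^ 2) {α β : Type*} (A : Matrix α β K) : Matrix β α K :=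
  (A.map (conjQ hF))ᵀ

lemma adj_apply (hF : Fintype.card K = q ^ 2) {α β : Type*} (A : Matrix α β K) (i : β) (j : α) :
    adj hF A i j = (A j i) ^ q := rfl

lemma adj_adj (hF : Fintype.card K = q ^ 2) {α β : Type*} (A : Matrix α β K) : adj hF (adj hF A) = A := by
  ext i j
  rw [adj_apply, adj_apply, pow_q_pow_q hF]

lemma adj_mul (hF : Fintype.card K = q ^ 2) {α β γ : Type*} [Fintype β] (A : Matrix α β K) (B : Matrix β γ K) :
    adj hF (A * B) = adj hF B * adj hF A := by
  rw [adj, adj, adj, Matrix.map_mul, Matrix.transpose_mul]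

lemma adj_add (hF : Fintype.card K = q ^ 2) {α β : Type*} (A B : Matrix α β K) :
    adj hF (A + B) = adj hF A + adj hF B := by
  ext i j
  simp only [adj_apply, Matrix.add_apply]
  exact pow_q_add hF _ _

lemma adj_sub (hF : Fintype.card K = q ^ 2) {α β : Type*} (A B : Matrix α β K) :
    adj hF (A - B) = adj hF A - adj hF B := by
  ext i j
  simp only [adj_apply, Matrix.sub_apply]
  exact conjQ_sub hF _ _

lemma adj_zero (hF : Fintype.card K = q ^ 2) {α β : Type*} : adj hF (0 : Matrix α β K) = 0 := by
  ext i j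
  have := one_lt_q hF
  simp only [adj_apply, Matrix.zero_apply]
  exact zero_pow (by omega)

lemma adj_smul (hF : Fintype.card K = q ^ 2) {α β : Type*} (c : K) (A : Matrix α β K) :
    adj hF (c • A) = (c ^ q) • adj hF A := by
  ext i j
  simp only [adj_apply, Matrix.smul_apply, smul_eq_mul]
  exact mul_pow _ _ _

lemma adj_one (hF : Fintype.card K = q ^ 2) {α : Type*} [Fintype α] [DecidableEq α] :
    adj hF (1 : Matrix α α K) = 1 := by
  rw [adj, Matrix.map_one _ (map_zero _) (map_one _), Matrix.transpose_one]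

lemma det_adj (hF : Fintype.card K = q ^ 2) {α : Type*} [Fintype α] [DecidableEq α] (A : Matrix α α K) :
    (adj hF A).det = conjQ hF A.det := by
  rw [adj, Matrix.det_transpose]
  exact (RingHom.map_det (conjQ hF) A).symm

lemma det_adj_ne (hF : Fintype.card K = q ^ 2) {α : Type*} [Fintype α] [DecidableEq α] {A : Matrix α α K}
    (h : A.det ≠ 0) : (adj hF A).det ≠ 0 := by
  rw [det_adj]
  intro h0
  apply h
  have := conjQ_conjQ hF A.det
  rw [h0, map_zero] at this
  exact this.symm

lemma adj_inv (hF : Fintype.card K = q ^ 2) {α : Type*} [Fintype α] [DecidableEq α] {A : Matrix α α K}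
    (h : A.det ≠ 0) : adj hF A⁻¹ = (adj hF A)⁻¹ := by
  symm
  apply Matrix.inv_eq_right_inv
  rw [← adj_mul, Matrix.nonsing_inv_mul _ (IsUnit.mk0 _ h), adj_one]

lemma adj_transpose (hF : Fintype.card K = q ^ 2) {α β : Type*} (A : Matrix α β K) :
    adj hF Aᵀ = (adj hF A)ᵀ := by
  ext i j
  rfl

/-- Reindexing the adjoint. -/
lemma hAdj_submatrix (hF : Fintype.card K = q ^ 2) {α : Type*} {n : ℕ} (e : Fin n ≃ α) (A : Matrix α α K) :
    hAdj hF (A.submatrix e e) = (adj hF A).submatrix e e := by
  ext i j
  rfl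

lemma submatrix_mul_fin {α : Type*} [Fintype α] {n : ℕ} (e : Fin n ≃ α) (A B : Matrix α α K) :
    (A * B).submatrix e e = A.submatrix e e * B.submatrix e e := by
  exact (Matrix.submatrix_mul_equiv A B e e e).symm

/-- Hermitian invertible matrices are norms. -/
lemma exists_norm_gen (hF : Fintype.card K = q ^ 2) {α : Type*} [Fintype α] [DecidableEq α] (h : Matrix α α K)
    (hh : adj hF h = h) (hdet : h.det ≠ 0) : ∃ x : Matrix α α K, adj hF x * x = h := by
  let e : Fin (Fintype.card α) ≃ α := (Fintype.equivFin α).symm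
  have h1 : hAdj hF (h.submatrix e e) = h.submatrix e e := by
    rw [hAdj_submatrix, hh]
  have h2 : (h.submatrix e e).det ≠ 0 := by
    rwa [Matrix.det_submatrix_equiv_self]
  obtain ⟨x, hx, -⟩ := exists_norm_of_herm hF _ h1 h2
  refine ⟨x.submatrix e.symm e.symm, ?_⟩
  have h3 : adj hF (x.submatrix e.symm e.symm) = (hAdj hF x).submatrix e.symm e.symm := by
    ext i j
    rfl
  rw [h3, Matrix.submatrix_mul_equiv, hx]
  ext i j
  simp

/-- Conjugate unitary matrices are unitarily conjugate. -/
lemma exists_unitary_conj_gen (hF : Fintype.card K = q ^ 2) {α : Type*} [Fintype α] [DecidableEq α]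
    (A B g : Matrix α α K) (hA : adj hF A * A = 1) (hB : adj hF B * B = 1) (hg : g.det ≠ 0) (hc : g * A = B * g) :
    ∃ c : Matrix α α K, adj hF c * c = 1 ∧ c * A = B * c := by
  let e : Fin (Fintype.card α) ≃ α := (Fintype.equivFin α).symm
  have sub1 : ((1 : Matrix α α K)).submatrix e e = 1 := by
    ext i j
    simp [Matrix.one_apply]
  have h1 : hAdj hF (A.submatrix e e) * A.submatrix e e = 1 := by
    rw [hAdj_submatrix, ← submatrix_mul_fin, hA, sub1]
  have h2 : hAdj hF (B.submatrix e e) * B.submatrix e e = 1 := by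
    rw [hAdj_submatrix, ← submatrix_mul_fin, hB, sub1]
  have h3 : (g.submatrix e e).det ≠ 0 := by
    rwa [Matrix.det_submatrix_equiv_self]
  have h4 : g.submatrix e e * A.submatrix e e = B.submatrix e e * g.submatrix e e := by
    rw [← submatrix_mul_fin, ← submatrix_mul_fin, hc]
  obtain ⟨c, hc1, hc2⟩ := exists_unitary_conj hF _ _ _ h1 h2 h3 h4
  refine ⟨c.submatrix e.symm e.symm, ?_, ?_⟩
  · have h5 : adj hF (c.submatrix e.symm e.symm) = (hAdj hF c).submatrix e.symm e.symm := by
      ext i j
      rfl
    rw [h5, Matrix.submatrix_mul_equiv, hc1]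
    ext i j
    simp [Matrix.one_apply]
  · have key : ∀ M : Matrix α α K, (M.submatrix e e).submatrix e.symm e.symm = M := by
      intro M
      ext i j
      simp
    calc c.submatrix e.symm e.symm * A = c.submatrix e.symm e.symm * (A.submatrix e e).submatrix e.symm e.symm := by
          rw [key]
      _ = (c * A.submatrix e e).submatrix e.symm e.symm := by
          rw [Matrix.submatrix_mul_equiv]
      _ = (B.submatrix e e * c).submatrix e.symm e.symm := by rw [hc2]
      _ = (B.submatrix e e).submatrix e.symm e.symm * c.submatrix e.symm e.symm := by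
          rw [Matrix.submatrix_mul_equiv]
      _ = B * c.submatrix e.symm e.symm := by rw [key]

/-- An element not fixed by the involution. -/
lemma exists_nonfixed (hF : Fintype.card K = q ^ 2) : ∃ l : K, l ^ q ≠ l := by
  by_contra hcon
  push Not at hcon
  exact conjQ_ne_id hF (RingHom.ext hcon)

/-- An element of trace one. -/
lemma exists_trace_one (hF : Fintype.card K = q ^ 2) : ∃ l : K, l + l ^ q = 1 := by
  obtain ⟨l, hl⟩ := exists_nonfixed hF
  have : ∃ x : K, x + x ^ q ≠ 0 := by
    by_cases h2 : (1 : K) + 1 = 0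
    · refine ⟨l, ?_⟩
      intro h0
      apply hl
      have h3 : -l = l := by
        calc -l = -l * 1 := by ring
          _ = -l * 1 + l * (1 + 1) := by rw [h2]; ring
          _ = l := by ring
      calc l ^ q = -l := by linear_combination h0
        _ = l := h3
    · exact ⟨1, by simpa using h2⟩
  obtain ⟨x, hx⟩ := this
  refine ⟨x / (x + x ^ q), ?_⟩
  have h3 : (x + x ^ q) ^ q = x + x ^ q := by
    rw [pow_q_add hF, pow_q_pow_q hF, add_comm]
  rw [div_pow, h3]
  field_simp

/-- An element `w ≠ 0` with `w ^ q = -w`. -/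
lemma exists_skew (hF : Fintype.card K = q ^ 2) : ∃ w : K, w ≠ 0 ∧ w ^ q = -w := by
  obtain ⟨l, hl⟩ := exists_nonfixed hF
  refine ⟨l - l ^ q, sub_ne_zero.2 (Ne.symm hl), ?_⟩
  rw [conjQ_sub hF, pow_q_pow_q hF]
  ring

/-- Fixed points of a semilinear involution have square order the order of the space. -/
lemma card_fix_sq (hF : Fintype.card K = q ^ 2) {V : Type*} [AddCommGroup V] [Module K V] [Finite V] (θ : V →+ V)
    (h2 : ∀ v, θ (θ v) = v) (hs : ∀ (c : K) v, θ (c • v) = c ^ q • θ v) :
    Nat.card {v // θ v = v} ^ 2 = Nat.card V := by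
  obtain ⟨l, hl⟩ := exists_nonfixed hF
  have hD : l - l ^ q ≠ 0 := sub_ne_zero.2 (Ne.symm hl)
  set D := l - l ^ q with hDdef
  have hDq : D ^ q = -D := by
    rw [hDdef, conjQ_sub hF, pow_q_pow_q hF]
    ring
  have hiq : (D⁻¹) ^ q = -D⁻¹ := by
    rw [inv_pow, hDq, inv_neg]
  have hlq : (l ^ q) ^ q = l := pow_q_pow_q hF l
  let fA : V → {v // θ v = v} := fun v => ⟨l • v + l ^ q • θ v, by
    rw [map_add, hs, hs, h2, hlq, add_comm]⟩
  let fB : V → {v // θ v = v} := fun v => ⟨v + θ v, by rw [map_add, h2, add_comm]⟩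
  let E : V ≃ {v // θ v = v} × {v // θ v = v} :=
    { toFun := fun v => (fA v, fB v)
      invFun := fun p => D⁻¹ • (p.1.1 - l ^ q • p.2.1)
      left_inv := by
        intro v
        have h3 : (l • v + l ^ q • θ v) - l ^ q • (v + θ v) = D • v := by
          rw [smul_add, hDdef, sub_smul]
          abel
        simp only [fA, fB]
        rw [h3, smul_smul, inv_mul_cancel₀ hD, one_smul]
      right_inv := by
        rintro ⟨⟨a, ha⟩, ⟨b, hb⟩⟩
        have hθ : θ (D⁻¹ • (a - l ^ q • b)) = -D⁻¹ • (a - l • b) := by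
          rw [hs, hiq, map_sub, hs, ha, hb, hlq]
        apply Prod.ext
        · apply Subtype.ext
          show l • (D⁻¹ • (a - l ^ q • b)) + l ^ q • θ (D⁻¹ • (a - l ^ q • b)) = a
          rw [hθ]
          have : l • (D⁻¹ • (a - l ^ q • b)) + l ^ q • (-D⁻¹ • (a - l • b)) = (D⁻¹ * D) • a := by
            generalize D⁻¹ = i
            generalize l ^ q = l' at hDdef
            rw [hDdef]
            (module)
          rw [this, inv_mul_cancel₀ hD, one_smul]
        · apply Subtype.ext
          show D⁻¹ • (a - l ^ q • b) + θ (D⁻¹ • (a - l ^ q • b)) = b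
          rw [hθ]
          have : D⁻¹ • (a - l ^ q • b) + -D⁻¹ • (a - l • b) = (D⁻¹ * D) • b := by
            generalize D⁻¹ = i
            generalize l ^ q = l' at hDdef
            rw [hDdef]
            (module)
          rw [this, inv_mul_cancel₀ hD, one_smul] }
  rw [Nat.card_congr E, Nat.card_prod, sq]

/-- Counting a group through the fibres of a map that are right cosets. -/
lemma card_fibers {G T : Type*} [Group G] [Finite G] (S : Subgroup G) (π : G → T) (hs : Function.Surjective π)
    (h : ∀ a b, π a = π b ↔ b * a⁻¹ ∈ S) : Nat.card G = Nat.card S * Nat.card T := by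
  have hq : Nat.card (G ⧸ S) = Nat.card T := by
    let f : G ⧸ S → T := fun x => Quotient.liftOn' x (fun g => π g⁻¹) (by
      intro a b hab
      have hab' : a⁻¹ * b ∈ S := QuotientGroup.leftRel_apply.1 hab
      apply (h _ _).2
      rw [inv_inv]
      have := S.inv_mem hab'
      simpa using this)
    apply Nat.card_congr
    refine Equiv.ofBijective f ⟨?_, ?_⟩
    · intro x y hxy
      induction x using QuotientGroup.induction_on with
      | H a =>
      induction y using QuotientGroup.induction_on with
      | H b =>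
      have h1 : π a⁻¹ = π b⁻¹ := hxy
      have h2 := (h _ _).1 h1
      rw [inv_inv] at h2
      apply QuotientGroup.eq.2
      have := S.inv_mem h2
      simpa using this
    · intro y
      obtain ⟨g, hg⟩ := hs y
      refine ⟨((g⁻¹ : G) : G ⧸ S), ?_⟩
      show π (g⁻¹)⁻¹ = y
      rw [inv_inv, hg]
  rw [Subgroup.card_eq_card_quotient_mul_card_subgroup S, hq, mul_comm]

/-- The preimage of a set under a surjective additive map. -/
lemma card_preimage {A B : Type*} [AddCommGroup A] [AddCommGroup B] [Finite A] (f : A →+ B)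
    (hf : Function.Surjective f) (Y : Set B) :
    Nat.card (f ⁻¹' Y) = Nat.card f.ker * Nat.card Y := by
  classical
  let s : B → A := Function.surjInv hf
  have hs : ∀ b, f (s b) = b := Function.surjInv_eq hf
  let E : (f ⁻¹' Y) ≃ f.ker × Y :=
    { toFun := fun x => (⟨x.1 - s (f x.1), by
          rw [AddMonoidHom.mem_ker, map_sub, hs, sub_self]⟩, ⟨f x.1, x.2⟩)
      invFun := fun p => ⟨p.1.1 + s p.2.1, by
          show f _ ∈ Y
          rw [map_add, hs, (AddMonoidHom.mem_ker).1 p.1.2, zero_add]
          exact p.2.2⟩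
      left_inv := by
        rintro ⟨x, hx⟩
        apply Subtype.ext
        simp
      right_inv := by
        rintro ⟨⟨a, ha⟩, ⟨b, hb⟩⟩
        have ha' : f a = 0 := ha
        apply Prod.ext
        · apply Subtype.ext
          simp [ha', hs]
        · apply Subtype.ext
          simp [ha', hs] }
  rw [Nat.card_congr E, Nat.card_prod]

end Cfsg.Agent.Lib.JType
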