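import Mathlib
import Cfsg.Agent.Lib.JType.UBase
import Cfsg.Agent.Lib.JType.Count

/-!
Invariant matrices of a unipotent Jordan matrix: top blocks and the link with the commutant.
-/

set_option autoImplicit false

namespace Cfsg.Agent.Lib.JType

open Matrix Cfsg.Agent.Lib.Classical

variable {K : Type*} [Field K] {t : ℕ} {d : Fin t → ℕ}

/-- Invariant matrices. -/
def IsInv (Γ : Matrix (Idx d) (Idx d) K) : Prop :=
  (Cfsg.jordanTypeMatrix d K)ᵀ * Γ * Cfsg.jordanTypeMatrix d K = Γ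

lemma jordan_eq_NN : Cfsg.jordanTypeMatrix d K = NN K d + 1 := by simp [NN]

lemma comm_jordan_iff (M : Matrix (Idx d) (Idx d) K) : M * Cfsg.jordanTypeMatrix d K = Cfsg.jordanTypeMatrix d K * M ↔
    M * NN K d = NN K d * M := by
  rw [jordan_eq_NN, mul_add, add_mul, mul_one, one_mul, add_left_inj]

lemma isInv_bil {Γ : Matrix (Idx d) (Idx d) K} (h : IsInv Γ) :
    ∀ u v, Γ.toBilin' (Cfsg.jordanTypeMatrix d K *ᵥ u) (Cfsg.jordanTypeMatrix d K *ᵥ v) = Γ.toBilin' u v := by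
  intro u v
  rw [Matrix.toBilin'_apply', Matrix.toBilin'_apply', Matrix.mulVec_mulVec, ← Matrix.vecMul_transpose,
    ← Matrix.dotProduct_mulVec, Matrix.mulVec_mulVec]
  conv_rhs => rw [← h]
  rw [mul_assoc]

lemma toBilin_bv (Γ : Matrix (Idx d) (Idx d) K) (j k : Fin t) (s : Fin (d j)) (l : Fin (d k)) :
    Γ.toBilin' (bv d K j s) (bv d K k l) = Γ ⟨j, s⟩ ⟨k, l⟩ := by
  rw [← bv_mk, ← bv_mk, Matrix.toBilin'_single]

lemma toBilin_nd {Γ : Matrix (Idx d) (Idx d) K} (h : Γ.det ≠ 0) (v : Idx d → K)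
    (hv : ∀ u, Γ.toBilin' u v = 0) : v = 0 := by
  apply Matrix.eq_zero_of_mulVec_eq_zero h
  funext x
  have := hv (Pi.single x 1)
  rw [Matrix.toBilin'_apply', single_one_dotProduct] at this
  exact this

/-- The top block of size `i`. -/
def Top (hd : ∀ k, 1 ≤ d k) (Γ : Matrix (Idx d) (Idx d) K) (i : ℕ) : Matrix {k // d k = i} {k // d k = i} K :=
  fun j k => Γ ⟨j.1, ⟨0, hd _⟩⟩ ⟨k.1, ⟨d k.1 - 1, Nat.sub_lt (hd _) one_pos⟩⟩

lemma Top_add (hd : ∀ k, 1 ≤ d k) (Γ Γ' : Matrix (Idx d) (Idx d) K) (i : ℕ) :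
    Top hd (Γ + Γ') i = Top hd Γ i + Top hd Γ' i := rfl

lemma Top_smul (hd : ∀ k, 1 ≤ d k) (c : K) (Γ : Matrix (Idx d) (Idx d) K) (i : ℕ) :
    Top hd (c • Γ) i = c • Top hd Γ i := rfl

lemma Top_det (hd : ∀ k, 1 ≤ d k) {Γ : Matrix (Idx d) (Idx d) K} (h : IsInv Γ) (hdet : Γ.det ≠ 0) (i : ℕ) :
    (Top hd Γ i).det ≠ 0 := by
  classical
  by_cases hi : ∃ k, d k = i
  · obtain ⟨k₀, hk₀⟩ := hi
    have hD := Gam_det Γ.toBilin' (isInv_bil h) hd (toBilin_nd hdet)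
    rw [(Gam_tri Γ.toBilin' (isInv_bil h) hd).det, Finset.prod_ne_zero_iff] at hD
    have hmem : OrderDual.toDual i ∈ Finset.univ.image (fun k => OrderDual.toDual (d k)) := by
      rw [Finset.mem_image]
      exact ⟨k₀, Finset.mem_univ _, by rw [hk₀]⟩
    have h1 := hD _ hmem
    let e : {k // d k = i} ≃ {k // OrderDual.toDual (d k) = OrderDual.toDual i} :=
      Equiv.subtypeEquivRight (fun k => by simp)
    rw [← Matrix.det_submatrix_equiv_self e] at h1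
    convert h1 using 2
    ext ⟨j, hj⟩ ⟨k, hk⟩
    exact (toBilin_bv Γ j k ⟨0, hd j⟩ ⟨d k - 1, Nat.sub_lt (hd k) one_pos⟩).symm
  · haveI : IsEmpty {k // d k = i} := ⟨fun k => hi ⟨k.1, k.2⟩⟩
    rw [Matrix.det_isEmpty]
    exact one_ne_zero

/-- Multiplying by an element of the commutant multiplies the top blocks. -/
lemma Top_mul (hd : ∀ k, 1 ≤ d k) {Γ X : Matrix (Idx d) (Idx d) K} (h : IsInv Γ) (hX : X * NN K d = NN K d * X) (i : ℕ) :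
    Top hd (Γ * X) i = Top hd Γ i * gb hd X i := by
  classical
  ext ⟨j, hj⟩ ⟨k, hk⟩
  simp only [Top, Matrix.mul_apply, gb]
  have hJ := isInv_bil h
  have hk1 := hd k
  let ι : {k' // d k' = i} → Idx d := fun k' => ⟨k'.1, ⟨d k'.1 - 1, Nat.sub_lt (hd _) one_pos⟩⟩
  symm
  refine Finset.sum_of_injOn ι ?_ (fun _ _ => Finset.mem_univ _) ?_ ?_
  · rintro ⟨a, ha⟩ _ ⟨b, hb⟩ _ hab
    have : a = b := congrArg Sigma.fst hab
    subst this
    rfl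
  · rintro ⟨k', s⟩ _ hy
    rcases lt_trichotomy (s : ℕ) (d k - 1) with hs | hs | hs
    · rw [comm_upper hX k' k s ⟨d k - 1, by omega⟩ hs, mul_zero]
    · by_cases hk' : d k' = i
      · exfalso
        apply hy
        refine ⟨⟨k', hk'⟩, by simp, ?_⟩
        have hs' : d k' - 1 = (s : ℕ) := by omega
        simp only [ι]
        congr 1
        exact Fin.ext hs'
      · have hs2 := s.2
        rw [comm_diag hX (d k - 1) k' k ⟨0, hd _⟩ s ⟨0, hd _⟩ ⟨d k - 1, by omega⟩ (by simp only; omega) (by simp only; omega),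
          comm_low hX k' k ⟨0, hd _⟩ ⟨0, hd _⟩ rfl (by show 0 + d k < d k'; omega), mul_zero]
    · have := E_high' Γ.toBilin' hJ j k' 0 s (by omega)
      rw [toBilin_bv Γ j k' ⟨0, hd _⟩ s] at this
      rw [this, zero_mul]
  · rintro ⟨k', hk'⟩ _
    simp only [ι]
    congr 1
    have hk'1 := hd k'
    exact (comm_diag hX (d k - 1) k' k ⟨0, hd _⟩ ⟨d k' - 1, by omega⟩ ⟨0, hd _⟩ ⟨d k - 1, by omega⟩
      (by simp only; omega) (by simp only; omega)).symm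

/-- The commutant element attached to an invariant matrix. -/
lemma comm_of_inv {Γ₀ Γ : Matrix (Idx d) (Idx d) K} (h₀ : IsInv Γ₀) (hdet : Γ₀.det ≠ 0) (h : IsInv Γ) :
    (Γ₀⁻¹ * Γ) * NN K d = NN K d * (Γ₀⁻¹ * Γ) := by
  classical
  rw [← comm_jordan_iff]
  set J := Cfsg.jordanTypeMatrix d K with hJ
  have hu : IsUnit Γ₀.det := IsUnit.mk0 _ hdet
  have h1 : Γ₀⁻¹ * Jᵀ * Γ₀ * J = 1 := by
    have : Γ₀⁻¹ * Jᵀ * Γ₀ * J = Γ₀⁻¹ * (Jᵀ * Γ₀ * J) := by simp only [mul_assoc]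
    rw [this, h₀, Matrix.nonsing_inv_mul _ hu]
  have h2 : J * (Γ₀⁻¹ * Jᵀ * Γ₀) = 1 := mul_eq_one_comm.1 h1
  have h3 : Γ₀⁻¹ * Γ = (Γ₀⁻¹ * Jᵀ * Γ₀) * (Γ₀⁻¹ * Γ) * J := by
    calc Γ₀⁻¹ * Γ = Γ₀⁻¹ * (Jᵀ * Γ * J) := by rw [h]
      _ = Γ₀⁻¹ * Jᵀ * (Γ₀ * Γ₀⁻¹) * Γ * J := by
        rw [Matrix.mul_nonsing_inv _ hu]
        simp only [mul_assoc, mul_one]
      _ = _ := by simp only [mul_assoc]
  calc Γ₀⁻¹ * Γ * J = (J * (Γ₀⁻¹ * Jᵀ * Γ₀)) * (Γ₀⁻¹ * Γ) * J := by rw [h2, one_mul]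
    _ = J * ((Γ₀⁻¹ * Jᵀ * Γ₀) * (Γ₀⁻¹ * Γ) * J) := by simp only [mul_assoc]
    _ = J * (Γ₀⁻¹ * Γ) := by rw [← h3]

lemma inv_of_comm {Γ₀ X : Matrix (Idx d) (Idx d) K} (h₀ : IsInv Γ₀) (hX : X * NN K d = NN K d * X) :
    IsInv (Γ₀ * X) := by
  have h1 := (comm_jordan_iff X).2 hX
  unfold IsInv at h₀ ⊢
  calc (Cfsg.jordanTypeMatrix d K)ᵀ * (Γ₀ * X) * Cfsg.jordanTypeMatrix d K
      = (Cfsg.jordanTypeMatrix d K)ᵀ * Γ₀ * (X * Cfsg.jordanTypeMatrix d K) := by simp only [mul_assoc]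
    _ = ((Cfsg.jordanTypeMatrix d K)ᵀ * Γ₀ * Cfsg.jordanTypeMatrix d K) * X := by rw [h1]; simp only [mul_assoc]
    _ = Γ₀ * X := by rw [h₀]

/-- Non-degeneracy is read on the top blocks. -/
lemma det_ne_iff_top (hd : ∀ k, 1 ≤ d k) {Γ₀ Γ : Matrix (Idx d) (Idx d) K} (h₀ : IsInv Γ₀) (hdet : Γ₀.det ≠ 0) (h : IsInv Γ) :
    Γ.det ≠ 0 ↔ ∀ i : Fin (Finset.univ.sup d + 1), (Top hd Γ (i : ℕ)).det ≠ 0 := by
  classical
  have hu : IsUnit Γ₀.det := IsUnit.mk0 _ hdet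
  set X := Γ₀⁻¹ * Γ with hX
  have hΓ : Γ = Γ₀ * X := by
    rw [hX, ← mul_assoc, Matrix.mul_nonsing_inv _ hu, one_mul]
  have hc : X * NN K d = NN K d * X := comm_of_inv h₀ hdet h
  have hT : ∀ i, (Top hd Γ i).det = (Top hd Γ₀ i).det * (gb hd X i).det := by
    intro i
    rw [hΓ, Top_mul hd h₀ hc, Matrix.det_mul]
  have hd1 : Γ.det ≠ 0 ↔ X.det ≠ 0 := by
    rw [hΓ, Matrix.det_mul]
    constructor
    · exact fun h => right_ne_zero_of_mul h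
    · exact fun h => mul_ne_zero hdet h
  rw [hd1, ← isUnit_iff_ne_zero, comm_isUnit_iff hd hc]
  constructor
  · intro h' i
    rw [hT]
    exact mul_ne_zero (Top_det hd h₀ hdet _) (h' i).ne_zero
  · intro h' i
    have := h' i
    rw [hT] at this
    exact IsUnit.mk0 _ (right_ne_zero_of_mul this)

end Cfsg.Agent.Lib.JType
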