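import Mathlib
import Cfsg.Agent.Lib.JType.UForm
import Cfsg.Agent.Lib.Known3.UOrders

/-!
Counting invariant Hermitian matrices of a unipotent Jordan matrix, and the order of its unitary centraliser.
-/

set_option autoImplicit false

namespace Cfsg.Agent.Lib.JType

open Matrix Cfsg.Agent.Lib.Classical Cfsg.Agent.Lib.KS2.IsoCl

variable {K : Type*} [Field K] [Fintype K] {q t : ℕ} {d : Fin t → ℕ}

lemma adj_jordan (hF : Fintype.card K = q ^ 2) :
    adj hF (Cfsg.jordanTypeMatrix d K) = (Cfsg.jordanTypeMatrix d K)ᵀ := by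
  have hq := one_lt_q hF
  ext x y
  rw [adj_apply, Matrix.transpose_apply, jordan_apply]
  split_ifs
  · exact one_pow _
  · exact one_pow _
  · exact zero_pow (by omega)

lemma adj_jordan_t (hF : Fintype.card K = q ^ 2) :
    adj hF (Cfsg.jordanTypeMatrix d K)ᵀ = Cfsg.jordanTypeMatrix d K := by
  rw [adj_transpose, adj_jordan, Matrix.transpose_transpose]

lemma isInv_adj (hF : Fintype.card K = q ^ 2) {Γ : Matrix (Idx d) (Idx d) K} (h : IsInv Γ) : IsInv (adj hF Γ) := by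
  have h1 := congrArg (adj hF) h
  unfold IsInv at h ⊢
  rw [adj_mul, adj_mul, adj_jordan, adj_jordan_t, ← mul_assoc] at h1
  exact h1

/-- The sign of the top block of size `i`. -/
def eps (K : Type*) [Field K] (i : ℕ) : K := (-1) ^ (i - 1)

lemma eps_q (hF : Fintype.card K = q ^ 2) (i : ℕ) : (eps K i) ^ q = eps K i := by
  have : ∀ z : K, z ^ q = conjQ hF z := fun _ => rfl
  rw [this, eps, map_pow, map_neg, map_one]

lemma eps_mul_self (i : ℕ) : eps K i * eps K i = 1 := by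
  rw [eps, ← mul_pow]
  simp

lemma Top_adj (hF : Fintype.card K = q ^ 2) (hd : ∀ k, 1 ≤ d k) {Γ : Matrix (Idx d) (Idx d) K} (h : IsInv Γ) (i : ℕ) :
    Top hd (adj hF Γ) i = eps K i • adj hF (Top hd Γ i) := by
  ext ⟨j, hj⟩ ⟨k, hk⟩
  have hk1 := hd k
  have hj1 := hd j
  have h1 := E_anti Γ.toBilin' (isInv_bil h) k j (d k - 1) 0 (by omega)
  rw [toBilin_bv Γ k j ⟨d k - 1, by omega⟩ ⟨0, by omega⟩, toBilin_bv Γ k j ⟨0, by omega⟩ ⟨d j - 1, by omega⟩] at h1
  simp only [Matrix.smul_apply, smul_eq_mul, adj_apply, Top]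
  rw [h1, mul_pow]
  congr 1
  rw [hk, ← eps, eps_q hF]

/-- Invariant matrices as a subspace. -/
def VV (d : Fin t → ℕ) (K : Type*) [Field K] : Submodule K (Matrix (Idx d) (Idx d) K) where
  carrier := {Γ | IsInv Γ}
  add_mem' := by
    intro a b ha hb
    have ha' : IsInv a := ha
    have hb' : IsInv b := hb
    show IsInv (a + b)
    unfold IsInv at ha' hb' ⊢
    rw [mul_add, add_mul, ha', hb']
  zero_mem' := by
    show IsInv (0 : Matrix (Idx d) (Idx d) K)
    simp [IsInv]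
  smul_mem' := by
    intro c a ha
    have ha' : IsInv a := ha
    show IsInv (c • a)
    unfold IsInv at ha' ⊢
    rw [Matrix.mul_smul, Matrix.smul_mul, ha']

/-- The conjugation on invariant matrices. -/
def thV (hF : Fintype.card K = q ^ 2) : VV d K →+ VV d K where
  toFun Γ := ⟨adj hF Γ.1, isInv_adj hF Γ.2⟩
  map_zero' := Subtype.ext (adj_zero hF)
  map_add' a b := Subtype.ext (adj_add hF _ _)

/-- The product of the matrix algebras of the blocks. -/
abbrev PP (d : Fin t → ℕ) (K : Type*) : Type _ :=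
  ∀ i : Fin (Finset.univ.sup d + 1), Matrix {k // d k = (i : ℕ)} {k // d k = (i : ℕ)} K

/-- The twisted conjugation on the block matrices. -/
def thP (hF : Fintype.card K = q ^ 2) : PP d K →+ PP d K where
  toFun ξ := fun i => eps K i • adj hF (ξ i)
  map_zero' := by
    funext i
    simp [adj_zero]
  map_add' a b := by
    funext i
    simp [adj_add]

/-- The top blocks. -/
def PhiV (hd : ∀ k, 1 ≤ d k) : VV d K →+ PP d K where
  toFun Γ := fun i => Top hd Γ.1 i
  map_zero' := rfl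
  map_add' _ _ := rfl

lemma PhiV_thV (hF : Fintype.card K = q ^ 2) (hd : ∀ k, 1 ≤ d k) (Γ : VV d K) :
    PhiV hd (thV hF Γ) = thP hF (PhiV hd Γ) := by
  funext i
  exact Top_adj hF hd Γ.2 i

/-- Fixed points on invariant matrices. -/
abbrev FV (hF : Fintype.card K = q ^ 2) : AddSubgroup (VV d K) := (thV hF).eqLocus (AddMonoidHom.id _)

/-- Fixed points on block matrices. -/
abbrev FP (hF : Fintype.card K = q ^ 2) : AddSubgroup (PP d K) := (thP hF).eqLocus (AddMonoidHom.id _)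

/-- The top blocks of Hermitian invariant matrices. -/
def PhiH (hF : Fintype.card K = q ^ 2) (hd : ∀ k, 1 ≤ d k) : FV (d := d) hF →+ FP (d := d) hF where
  toFun Γ := ⟨PhiV hd Γ.1, by
    show thP hF (PhiV hd Γ.1) = PhiV hd Γ.1
    rw [← PhiV_thV]
    congr 1
    exact Γ.2⟩
  map_zero' := Subtype.ext (map_zero _)
  map_add' _ _ := Subtype.ext (map_add _ _ _)

section main

variable (hF : Fintype.card K = q ^ 2) (hd : ∀ k, 1 ≤ d k) {Γ₀ : Matrix (Idx d) (Idx d) K}
  (h₀ : IsInv Γ₀) (hdet : Γ₀.det ≠ 0)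

include h₀ hdet in
lemma PhiV_surj : Function.Surjective (PhiV (K := K) hd) := by
  classical
  intro ξ
  let x : PP d K := fun i => (Top hd Γ₀ i)⁻¹ * ξ i
  let c₁ : {y : II d // pD y} → K := (dEquiv hd).symm x
  let c : II d → K := fun y => if h : pD y then c₁ ⟨y, h⟩ else 0
  have hc : ∀ i : Fin (Finset.univ.sup d + 1), gb hd (ofC c) i = x i := by
    intro i
    have h1 : (fun y : {y : II d // pD y} => c y.1) = c₁ := by
      funext y
      simp only [c]
      rw [dif_pos y.2]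
    rw [gb_ofC, h1]
    exact congrFun ((dEquiv hd).apply_symm_apply x) i
  refine ⟨⟨Γ₀ * ofC c, inv_of_comm h₀ (ofC_comm c)⟩, ?_⟩
  funext i
  show Top hd (Γ₀ * ofC c) i = ξ i
  rw [Top_mul hd h₀ (ofC_comm c), hc]
  simp only [x]
  rw [← mul_assoc, Matrix.mul_nonsing_inv _ (IsUnit.mk0 _ (Top_det hd h₀ hdet _)), one_mul]

include h₀ hdet in
lemma PhiH_surj : Function.Surjective (PhiH (d := d) hF hd) := by
  intro ξ
  obtain ⟨Γ, hΓ⟩ := PhiV_surj hd h₀ hdet ξ.1
  obtain ⟨l, hl⟩ := exists_trace_one hF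
  have hlq : (l ^ q) ^ q = l := pow_q_pow_q hF l
  let Γ' : VV d K := l • Γ + (l ^ q) • thV hF Γ
  have h1 : thV hF Γ' = Γ' := by
    apply Subtype.ext
    show adj hF (l • Γ.1 + (l ^ q) • adj hF Γ.1) = l • Γ.1 + (l ^ q) • adj hF Γ.1
    rw [adj_add, adj_smul, adj_smul, adj_adj, hlq, add_comm]
  refine ⟨⟨Γ', h1⟩, ?_⟩
  apply Subtype.ext
  show PhiV hd Γ' = ξ.1
  have h2 : thP hF ξ.1 = ξ.1 := ξ.2
  have h3 : PhiV hd (thV hF Γ) = ξ.1 := by
    rw [PhiV_thV, hΓ, h2]
  have h4 : PhiV hd Γ' = l • PhiV hd Γ + (l ^ q) • PhiV hd (thV hF Γ) := rfl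
  rw [h4, hΓ, h3, ← add_smul, hl, one_smul]

include hd h₀ hdet in
/-- The number of invariant matrices. -/
lemma card_VV : Nat.card (VV d K) = Nat.card (II d → K) := by
  classical
  have hu : IsUnit Γ₀.det := IsUnit.mk0 _ hdet
  rw [← Nat.card_congr (commEquiv (F := K) hd)]
  refine Nat.card_congr ⟨fun Γ => ⟨Γ₀⁻¹ * Γ.1, comm_of_inv h₀ hdet Γ.2⟩, fun X => ⟨Γ₀ * X.1, inv_of_comm h₀ X.2⟩, ?_, ?_⟩
  · intro Γ
    apply Subtype.ext
    show Γ₀ * (Γ₀⁻¹ * Γ.1) = Γ.1
    rw [← mul_assoc, Matrix.mul_nonsing_inv _ hu, one_mul]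
  · intro X
    apply Subtype.ext
    show Γ₀⁻¹ * (Γ₀ * X.1) = X.1
    rw [← mul_assoc, Matrix.nonsing_inv_mul _ hu, one_mul]

include hd in
lemma card_II_fun : Nat.card (II d → K) = Nat.card (PP d K) * Nat.card ({x : II d // ¬ pD x} → K) := by
  classical
  rw [← Nat.card_congr (dEquiv (F := K) hd), ← Nat.card_prod]
  exact Nat.card_congr (Equiv.piEquivPiSubtypeProd pD (fun _ => K))

include hF in
lemma card_neg_fun : Nat.card ({x : II d // ¬ pD x} → K) = (q ^ Fintype.card {x : II d // ¬ pD x}) ^ 2 := by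
  classical
  rw [Nat.card_fun, Nat.card_eq_fintype_card, Nat.card_eq_fintype_card, hF, ← pow_mul, ← pow_mul, mul_comm]

lemma card_FV_sq : Nat.card (FV (d := d) hF) ^ 2 = Nat.card (VV d K) := by
  refine card_fix_sq hF (thV hF) ?_ ?_
  · intro v
    exact Subtype.ext (adj_adj hF v.1)
  · intro c v
    exact Subtype.ext (adj_smul hF c v.1)

lemma card_FP_sq : Nat.card (FP (d := d) hF) ^ 2 = Nat.card (PP d K) := by
  refine card_fix_sq hF (thP hF) ?_ ?_
  · intro v
    funext i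
    show eps K i • adj hF (eps K i • adj hF (v i)) = v i
    rw [adj_smul, adj_adj, eps_q hF, smul_smul, eps_mul_self, one_smul]
  · intro c v
    funext i
    show eps K i • adj hF (c • v i) = c ^ q • (eps K i • adj hF (v i))
    rw [adj_smul, smul_comm]

include h₀ hdet in
/-- The number of Hermitian invariant matrices with trivial top blocks. -/
lemma card_ker : Nat.card (PhiH (d := d) hF hd).ker = q ^ Fintype.card {x : II d // ¬ pD x} := by
  classical
  have h1 := card_preimage (PhiH (d := d) hF hd) (PhiH_surj hF hd h₀ hdet) Set.univ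
  rw [Set.preimage_univ, Nat.card_congr (Equiv.Set.univ _), Nat.card_congr (Equiv.Set.univ _)] at h1
  have h2 : Nat.card (FV (d := d) hF) ^ 2 = (Nat.card (FP (d := d) hF) * q ^ Fintype.card {x : II d // ¬ pD x}) ^ 2 := by
    rw [card_FV_sq, card_VV hd h₀ hdet, card_II_fun hd, card_neg_fun hF, mul_pow, card_FP_sq]
  have h3 : Nat.card (FV (d := d) hF) = Nat.card (FP (d := d) hF) * q ^ Fintype.card {x : II d // ¬ pD x} :=
    Nat.pow_left_injective (n := 2) (by omega) h2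
  rw [h3, mul_comm] at h1
  have h4 : 0 < Nat.card (FP (d := d) hF) := Nat.card_pos
  exact (Nat.eq_of_mul_eq_mul_right h4 h1).symm

/-- Invertible twisted Hermitian block matrices. -/
abbrev HH (hF : Fintype.card K = q ^ 2) (d : Fin t → ℕ) (i : ℕ) : Type _ :=
  {ξ : Matrix {k // d k = i} {k // d k = i} K // adj hF ξ = eps K i • ξ ∧ ξ.det ≠ 0}

/-- Non-degenerate Hermitian invariant matrices. -/
abbrev XX (hF : Fintype.card K = q ^ 2) (d : Fin t → ℕ) : Type _ :=
  {Γ : Matrix (Idx d) (Idx d) K // IsInv Γ ∧ adj hF Γ = Γ ∧ Γ.det ≠ 0}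

include hF hd h₀ hdet in
/-- The number of non-degenerate Hermitian invariant matrices. -/
lemma card_XX : Nat.card (XX hF d) = q ^ Fintype.card {x : II d // ¬ pD x} *
    ∏ i : Fin (Finset.univ.sup d + 1), Nat.card (HH hF d (i : ℕ)) := by
  classical
  let Y : Set (FP (d := d) hF) := {ξ | ∀ i, (ξ.1 i).det ≠ 0}
  have h1 := card_preimage (PhiH (d := d) hF hd) (PhiH_surj hF hd h₀ hdet) Y
  rw [card_ker hF hd h₀ hdet] at h1
  have h2 : Nat.card (XX hF d) = Nat.card ((PhiH (d := d) hF hd) ⁻¹' Y) := by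
    refine Nat.card_congr ⟨fun Γ => ⟨⟨⟨Γ.1, Γ.2.1⟩, Subtype.ext Γ.2.2.1⟩, ?_⟩, fun Γ => ⟨Γ.1.1.1, Γ.1.1.2, ?_, ?_⟩, ?_, ?_⟩
    · intro i
      exact (det_ne_iff_top hd h₀ hdet Γ.2.1).1 Γ.2.2.2 i
    · exact congrArg Subtype.val Γ.1.2
    · exact (det_ne_iff_top hd h₀ hdet Γ.1.1.2).2 Γ.2
    · intro Γ
      rfl
    · intro Γ
      rfl
  have h3 : Nat.card Y = ∏ i : Fin (Finset.univ.sup d + 1), Nat.card (HH hF d (i : ℕ)) := by
    rw [← Nat.card_pi]
    refine Nat.card_congr ⟨fun ξ i => ⟨ξ.1.1 i, ?_, ξ.2 i⟩, fun ξ => ⟨⟨fun i => (ξ i).1, ?_⟩, fun i => (ξ i).2.2⟩, ?_, ?_⟩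
    · have h4 : eps K i • adj hF (ξ.1.1 i) = ξ.1.1 i := congrFun ξ.1.2 i
      conv_rhs => rw [← h4]
      rw [smul_smul, eps_mul_self, one_smul]
    · funext i
      show eps K i • adj hF (ξ i).1 = (ξ i).1
      rw [(ξ i).2.1, smul_smul, eps_mul_self, one_smul]
    · intro ξ
      rfl
    · intro ξ
      rfl
  rw [h2, h1, h3]

end main

end Cfsg.Agent.Lib.JType
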