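import Mathlib
import Cfsg.Agent.Lib.JType.UCount
import Cfsg.Agent.Lib.JType.Conj

/-!
Orbit counting for conjugate-congruence and the order of the isometry group inside the commutant.
-/

set_option autoImplicit false

namespace Cfsg.Agent.Lib.JType

open Matrix Cfsg.Agent.Lib.Classical Cfsg.Agent.Lib.KS2.IsoCl Cfsg.Agent.Lib.Known3.UOrders

variable {K : Type*} [Field K] [Fintype K] {q t : ℕ} {d : Fin t → ℕ}

section generic

variable {α : Type*} [Fintype α] [DecidableEq α]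

/-- The isometries of a matrix. -/
def UG (hF : Fintype.card K = q ^ 2) (Γ₀ : Matrix α α K) : Subgroup (GL α K) where
  carrier := {g | adj hF (g : Matrix α α K) * Γ₀ * (g : Matrix α α K) = Γ₀}
  mul_mem' := by
    intro a b ha hb
    have ha' : adj hF (a : Matrix α α K) * Γ₀ * (a : Matrix α α K) = Γ₀ := ha
    have hb' : adj hF (b : Matrix α α K) * Γ₀ * (b : Matrix α α K) = Γ₀ := hb
    show adj hF ((a * b : GL α K) : Matrix α α K) * Γ₀ * ((a * b : GL α K) : Matrix α α K) = Γ₀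
    rw [Units.val_mul, adj_mul]
    calc adj hF (b : Matrix α α K) * adj hF (a : Matrix α α K) * Γ₀ * ((a : Matrix α α K) * (b : Matrix α α K))
        = adj hF (b : Matrix α α K) * (adj hF (a : Matrix α α K) * Γ₀ * (a : Matrix α α K)) * (b : Matrix α α K) := by
          simp only [mul_assoc]
      _ = Γ₀ := by rw [ha', hb']
  one_mem' := by
    show adj hF ((1 : GL α K) : Matrix α α K) * Γ₀ * ((1 : GL α K) : Matrix α α K) = Γ₀
    rw [Units.val_one, adj_one, one_mul, mul_one]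
  inv_mem' := by
    intro a ha
    have ha' : adj hF (a : Matrix α α K) * Γ₀ * (a : Matrix α α K) = Γ₀ := ha
    show adj hF ((a⁻¹ : GL α K) : Matrix α α K) * Γ₀ * ((a⁻¹ : GL α K) : Matrix α α K) = Γ₀
    have h1 : (a : Matrix α α K) * ((a⁻¹ : GL α K) : Matrix α α K) = 1 := by
      rw [← Units.val_mul, mul_inv_cancel, Units.val_one]
    calc adj hF ((a⁻¹ : GL α K) : Matrix α α K) * Γ₀ * ((a⁻¹ : GL α K) : Matrix α α K)
        = adj hF ((a⁻¹ : GL α K) : Matrix α α K) * (adj hF (a : Matrix α α K) * Γ₀ * (a : Matrix α α K)) * ((a⁻¹ : GL α K) : Matrix α α K) := by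
          rw [ha']
      _ = adj hF ((a : Matrix α α K) * ((a⁻¹ : GL α K) : Matrix α α K)) * Γ₀ * ((a : Matrix α α K) * ((a⁻¹ : GL α K) : Matrix α α K)) := by
          rw [adj_mul]
          simp only [mul_assoc]
      _ = Γ₀ := by rw [h1, adj_one, one_mul, mul_one]

lemma mem_UG (hF : Fintype.card K = q ^ 2) (Γ₀ : Matrix α α K) (g : GL α K) :
    g ∈ UG hF Γ₀ ↔ adj hF (g : Matrix α α K) * Γ₀ * (g : Matrix α α K) = Γ₀ := Iff.rfl

/-- The orbit of a matrix under conjugate congruence. -/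
lemma card_orbit (hF : Fintype.card K = q ^ 2) (Γ₀ : Matrix α α K) (Gs : Subgroup (GL α K))
    (T : Set (Matrix α α K)) (hmap : ∀ g ∈ Gs, adj hF (g : Matrix α α K) * Γ₀ * (g : Matrix α α K) ∈ T)
    (hsurj : ∀ Γ ∈ T, ∃ g ∈ Gs, adj hF (g : Matrix α α K) * Γ₀ * (g : Matrix α α K) = Γ) :
    Nat.card Gs = Nat.card ((UG hF Γ₀).subgroupOf Gs) * Nat.card T := by
  let π : Gs → T := fun g => ⟨adj hF ((g : GL α K) : Matrix α α K) * Γ₀ * ((g : GL α K) : Matrix α α K), hmap g.1 g.2⟩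
  refine card_fibers _ π ?_ ?_
  · rintro ⟨Γ, hΓ⟩
    obtain ⟨g, hg, h⟩ := hsurj Γ hΓ
    exact ⟨⟨g, hg⟩, Subtype.ext h⟩
  · rintro ⟨a, ha⟩ ⟨b, hb⟩
    rw [Subgroup.mem_subgroupOf]
    show _ ↔ (b * a⁻¹ : GL α K) ∈ UG hF Γ₀
    rw [mem_UG, Subtype.ext_iff]
    show adj hF (a : Matrix α α K) * Γ₀ * (a : Matrix α α K) = adj hF (b : Matrix α α K) * Γ₀ * (b : Matrix α α K) ↔ _
    have h1 : (a : Matrix α α K) * ((a⁻¹ : GL α K) : Matrix α α K) = 1 := by
      rw [← Units.val_mul, mul_inv_cancel, Units.val_one]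
    have h2 : ((a⁻¹ : GL α K) : Matrix α α K) * (a : Matrix α α K) = 1 := by
      rw [← Units.val_mul, inv_mul_cancel, Units.val_one]
    rw [Units.val_mul, adj_mul]
    constructor
    · intro h
      calc adj hF ((a⁻¹ : GL α K) : Matrix α α K) * adj hF (b : Matrix α α K) * Γ₀ * ((b : Matrix α α K) * ((a⁻¹ : GL α K) : Matrix α α K))
          = adj hF ((a⁻¹ : GL α K) : Matrix α α K) * (adj hF (b : Matrix α α K) * Γ₀ * (b : Matrix α α K)) * ((a⁻¹ : GL α K) : Matrix α α K) := by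
            simp only [mul_assoc]
        _ = adj hF ((a : Matrix α α K) * ((a⁻¹ : GL α K) : Matrix α α K)) * Γ₀ * ((a : Matrix α α K) * ((a⁻¹ : GL α K) : Matrix α α K)) := by
            rw [← h, adj_mul]
            simp only [mul_assoc]
        _ = Γ₀ := by rw [h1, adj_one, one_mul, mul_one]
    · intro h
      calc adj hF (a : Matrix α α K) * Γ₀ * (a : Matrix α α K)
          = adj hF (a : Matrix α α K) * (adj hF ((a⁻¹ : GL α K) : Matrix α α K) * adj hF (b : Matrix α α K) * Γ₀ * ((b : Matrix α α K) * ((a⁻¹ : GL α K) : Matrix α α K))) * (a : Matrix α α K) := by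
            rw [h]
        _ = adj hF (((a⁻¹ : GL α K) : Matrix α α K) * (a : Matrix α α K)) * adj hF (b : Matrix α α K) * Γ₀ * ((b : Matrix α α K) * (((a⁻¹ : GL α K) : Matrix α α K) * (a : Matrix α α K))) := by
            rw [adj_mul]
            simp only [mul_assoc]
        _ = _ := by rw [h2, adj_one, one_mul, mul_one]

/-- The unitary group on an arbitrary index type has the order of the standard one. -/
lemma card_UG_one (hF : Fintype.card K = q ^ 2) :
    Nat.card (UG hF (1 : Matrix α α K)) = Nat.card (Cfsg.GU (Fintype.card α) K q) := by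
  let e : Fin (Fintype.card α) ≃ α := (Fintype.equivFin α).symm
  have sub1 : ((1 : Matrix α α K)).submatrix e e = 1 := by
    ext i j
    simp [Matrix.one_apply]
  have sub2 : ((1 : Matrix (Fin (Fintype.card α)) (Fin (Fintype.card α)) K)).submatrix e.symm e.symm = 1 := by
    ext i j
    simp [Matrix.one_apply]
  have key : ∀ g : GL α K, g ∈ UG hF (1 : Matrix α α K) →
      hAdj hF ((g : Matrix α α K).submatrix e e) * (g : Matrix α α K).submatrix e e = 1 := by
    intro g hg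
    have h1 : adj hF (g : Matrix α α K) * 1 * (g : Matrix α α K) = 1 := hg
    rw [mul_one] at h1
    rw [Cfsg.Agent.Lib.JType.hAdj_submatrix, ← submatrix_mul_fin, h1, sub1]
  have key2 : ∀ h : Cfsg.GU (Fintype.card α) K q, adj hF ((um h).submatrix e.symm e.symm) * (um h).submatrix e.symm e.symm = 1 := by
    intro h
    have h3 : adj hF ((um h).submatrix e.symm e.symm) = (hAdj hF (um h)).submatrix e.symm e.symm := by
      ext i j
      rfl
    rw [h3, Matrix.submatrix_mul_equiv, hAdj_um, sub2]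
  have key3 : ∀ h : Cfsg.GU (Fintype.card α) K q, ((um h).submatrix e.symm e.symm).det ≠ 0 := by
    intro h h0
    have := congrArg Matrix.det (key2 h)
    rw [Matrix.det_mul, h0, mul_zero, Matrix.det_one] at this
    exact zero_ne_one this
  refine Nat.card_congr ⟨fun g => mkU hF _ (key g.1 g.2), fun h => ⟨Matrix.GeneralLinearGroup.mkOfDetNeZero _ (key3 h), ?_⟩, ?_, ?_⟩
  · show adj hF ((um h).submatrix e.symm e.symm) * 1 * (um h).submatrix e.symm e.symm = 1
    rw [mul_one, key2]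
  · intro g
    apply Subtype.ext
    apply Units.ext
    ext i j
    show ((g.1 : GL α K) : Matrix α α K) (e (e.symm i)) (e (e.symm j)) = _
    simp
  · intro h
    apply um_ext
    ext i j
    show (um h) (e.symm (e i)) (e.symm (e j)) = _
    simp

/-- Norms: the general linear group acts transitively on twisted Hermitian matrices. -/
lemma card_GL_herm (hF : Fintype.card K = q ^ 2) (ε c : K) (hc : c ≠ 0) (hcq : c ^ q = ε * c) (hε : ε * ε = 1) :
    Nat.card (GL α K) = Nat.card (Cfsg.GU (Fintype.card α) K q) *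
      Nat.card {ξ : Matrix α α K // adj hF ξ = ε • ξ ∧ ξ.det ≠ 0} := by
  classical
  let T : Set (Matrix α α K) := {h | adj hF h = h ∧ h.det ≠ 0}
  have h1 := card_orbit hF (1 : Matrix α α K) ⊤ T ?_ ?_
  · rw [Subgroup.card_top] at h1
    have h2 : Nat.card ((UG hF (1 : Matrix α α K)).subgroupOf ⊤) = Nat.card (UG hF (1 : Matrix α α K)) := by
      apply Nat.card_congr
      exact (Subgroup.subgroupOfEquivOfLe le_top).toEquiv
    rw [h2, card_UG_one] at h1
    rw [h1]
    congr 1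
    have hci : (c⁻¹) ^ q = ε * c⁻¹ := by
      rw [inv_pow, hcq, mul_inv]
      congr 1
      exact (eq_inv_of_mul_eq_one_left hε).symm
    refine Nat.card_congr ⟨fun h => ⟨c • h.1, ?_, ?_⟩, fun ξ => ⟨c⁻¹ • ξ.1, ?_, ?_⟩, ?_, ?_⟩
    · rw [adj_smul, h.2.1, hcq, smul_smul]
    · rw [Matrix.det_smul]
      exact mul_ne_zero (pow_ne_zero _ hc) h.2.2
    · rw [adj_smul, ξ.2.1, hci, smul_smul]
      congr 1
      calc ε * c⁻¹ * ε = (ε * ε) * c⁻¹ := by ring
        _ = c⁻¹ := by rw [hε, one_mul]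
    · rw [Matrix.det_smul]
      exact mul_ne_zero (pow_ne_zero _ (inv_ne_zero hc)) ξ.2.2
    · intro h
      apply Subtype.ext
      show c⁻¹ • c • h.1 = h.1
      rw [smul_smul, inv_mul_cancel₀ hc, one_smul]
    · intro ξ
      apply Subtype.ext
      show c • c⁻¹ • ξ.1 = ξ.1
      rw [smul_smul, mul_inv_cancel₀ hc, one_smul]
  · intro g _
    refine ⟨?_, ?_⟩
    · rw [mul_one, adj_mul, adj_adj]
    · rw [mul_one, Matrix.det_mul]
      have h3 : (g : Matrix α α K).det ≠ 0 := ((Matrix.isUnit_iff_isUnit_det _).1 g.isUnit).ne_zero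
      exact mul_ne_zero (det_adj_ne hF h3) h3
  · intro Γ hΓ
    obtain ⟨x, hx⟩ := exists_norm_gen hF Γ hΓ.1 hΓ.2
    have h3 : x.det ≠ 0 := by
      intro h0
      apply hΓ.2
      rw [← hx, Matrix.det_mul, h0, mul_zero]
    refine ⟨Matrix.GeneralLinearGroup.mkOfDetNeZero x h3, Subgroup.mem_top _, ?_⟩
    show adj hF x * 1 * x = Γ
    rw [mul_one, hx]

end generic

/-- The commutant in the general linear group. -/
def CG (d : Fin t → ℕ) (K : Type*) [Field K] [Fintype K] : Subgroup (GL (Idx d) K) where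
  carrier := {g | (g : Matrix (Idx d) (Idx d) K) * Cfsg.jordanTypeMatrix d K = Cfsg.jordanTypeMatrix d K * (g : Matrix (Idx d) (Idx d) K)}
  mul_mem' := by
    intro a b ha hb
    have ha' : (a : Matrix (Idx d) (Idx d) K) * Cfsg.jordanTypeMatrix d K = Cfsg.jordanTypeMatrix d K * (a : Matrix (Idx d) (Idx d) K) := ha
    have hb' : (b : Matrix (Idx d) (Idx d) K) * Cfsg.jordanTypeMatrix d K = Cfsg.jordanTypeMatrix d K * (b : Matrix (Idx d) (Idx d) K) := hb
    show ((a * b : GL (Idx d) K) : Matrix (Idx d) (Idx d) K) * Cfsg.jordanTypeMatrix d K = Cfsg.jordanTypeMatrix d K * ((a * b : GL (Idx d) K) : Matrix (Idx d) (Idx d) K)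
    rw [Units.val_mul, mul_assoc, hb', ← mul_assoc, ha', mul_assoc]
  one_mem' := by
    show ((1 : GL (Idx d) K) : Matrix (Idx d) (Idx d) K) * Cfsg.jordanTypeMatrix d K = Cfsg.jordanTypeMatrix d K * ((1 : GL (Idx d) K) : Matrix (Idx d) (Idx d) K)
    rw [Units.val_one, one_mul, mul_one]
  inv_mem' := by
    intro a ha
    have ha' : Commute (a : Matrix (Idx d) (Idx d) K) (Cfsg.jordanTypeMatrix d K) := ha
    exact (Commute.units_inv_left ha')

section main

variable (hF : Fintype.card K = q ^ 2) (hd : ∀ k, 1 ≤ d k) {Γ₀ : Matrix (Idx d) (Idx d) K}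
  (h₀ : IsInv Γ₀) (hH : adj hF Γ₀ = Γ₀) (hdet : Γ₀.det ≠ 0)

lemma jordan_det : (Cfsg.jordanTypeMatrix d K).det ≠ 0 := by
  have h := J_isUnit (F := K) (d := d)
  exact ((Matrix.isUnit_iff_isUnit_det _).1 h).ne_zero

include h₀ hH hdet in
/-- The commutant acts transitively on Hermitian non-degenerate invariant matrices. -/
lemma commutant_trans (Γ : Matrix (Idx d) (Idx d) K) (h : IsInv Γ) (hΓ : adj hF Γ = Γ) (hd2 : Γ.det ≠ 0) :
    ∃ g ∈ CG d K, adj hF (g : Matrix (Idx d) (Idx d) K) * Γ₀ * (g : Matrix (Idx d) (Idx d) K) = Γ := by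
  classical
  set J := Cfsg.jordanTypeMatrix d K with hJ
  obtain ⟨x₀, hx₀⟩ := exists_norm_gen hF Γ₀ hH hdet
  obtain ⟨x, hx⟩ := exists_norm_gen hF Γ hΓ hd2
  have hd0 : x₀.det ≠ 0 := by
    intro h0
    apply hdet
    rw [← hx₀, Matrix.det_mul, h0, mul_zero]
  have hd1 : x.det ≠ 0 := by
    intro h0
    apply hd2
    rw [← hx, Matrix.det_mul, h0, mul_zero]
  have hu0 : IsUnit x₀.det := IsUnit.mk0 _ hd0
  have hu1 : IsUnit x.det := IsUnit.mk0 _ hd1
  have hi0 : x₀⁻¹ * x₀ = 1 := Matrix.nonsing_inv_mul _ hu0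
  have hi0' : x₀ * x₀⁻¹ = 1 := Matrix.mul_nonsing_inv _ hu0
  have hi1 : x⁻¹ * x = 1 := Matrix.nonsing_inv_mul _ hu1
  have hi1' : x * x⁻¹ = 1 := Matrix.mul_nonsing_inv _ hu1
  have hadjJ : adj hF J = Jᵀ := adj_jordan hF
  -- a general fact
  have huni : ∀ (y G : Matrix (Idx d) (Idx d) K), y.det ≠ 0 → adj hF y * y = G → Jᵀ * G * J = G →
      adj hF (y * J * y⁻¹) * (y * J * y⁻¹) = 1 := by
    intro y G hy hyG hG
    have hyu : IsUnit y.det := IsUnit.mk0 _ hy
    have hiy : y⁻¹ * y = 1 := Matrix.nonsing_inv_mul _ hyu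
    have hadjy : adj hF y⁻¹ * adj hF y = 1 := by
      rw [← adj_mul, Matrix.mul_nonsing_inv _ hyu, adj_one]
    calc adj hF (y * J * y⁻¹) * (y * J * y⁻¹) = adj hF y⁻¹ * (adj hF J * (adj hF y * y) * J) * y⁻¹ := by
          rw [adj_mul, adj_mul]
          simp only [mul_assoc]
      _ = adj hF y⁻¹ * G * y⁻¹ := by rw [hyG, hadjJ, hG]
      _ = (adj hF y⁻¹ * adj hF y) * (y * y⁻¹) := by
          rw [← hyG]
          simp only [mul_assoc]
      _ = 1 := by rw [hadjy, Matrix.mul_nonsing_inv _ hyu, one_mul]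
  have hA := huni x Γ hd1 hx h
  have hB := huni x₀ Γ₀ hd0 hx₀ h₀
  have hg : (x₀ * x⁻¹).det ≠ 0 := by
    rw [Matrix.det_mul, Matrix.det_nonsing_inv]
    refine mul_ne_zero hd0 ?_
    simp [hd1]
  have hc : (x₀ * x⁻¹) * (x * J * x⁻¹) = (x₀ * J * x₀⁻¹) * (x₀ * x⁻¹) := by
    calc (x₀ * x⁻¹) * (x * J * x⁻¹) = x₀ * (x⁻¹ * x) * J * x⁻¹ := by simp only [mul_assoc]
      _ = x₀ * J * x⁻¹ := by rw [hi1, mul_one]
      _ = x₀ * J * (x₀⁻¹ * x₀) * x⁻¹ := by rw [hi0, mul_one]
      _ = _ := by simp only [mul_assoc]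
  obtain ⟨c, hc1, hc2⟩ := exists_unitary_conj_gen hF _ _ _ hA hB hg hc
  have hcd : c.det ≠ 0 := by
    intro h0
    have := congrArg Matrix.det hc1
    rw [Matrix.det_mul, h0, mul_zero, Matrix.det_one] at this
    exact zero_ne_one this
  have hM : (x₀⁻¹ * c * x).det ≠ 0 := by
    rw [Matrix.det_mul, Matrix.det_mul, Matrix.det_nonsing_inv]
    refine mul_ne_zero (mul_ne_zero ?_ hcd) hd1
    simp [hd0]
  refine ⟨Matrix.GeneralLinearGroup.mkOfDetNeZero _ hM, ?_, ?_⟩
  · show (x₀⁻¹ * c * x) * J = J * (x₀⁻¹ * c * x)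
    calc (x₀⁻¹ * c * x) * J = x₀⁻¹ * (c * (x * J * x⁻¹)) * x := by
          calc (x₀⁻¹ * c * x) * J = x₀⁻¹ * c * x * J * (x⁻¹ * x) := by rw [hi1, mul_one]
            _ = _ := by simp only [mul_assoc]
      _ = x₀⁻¹ * ((x₀ * J * x₀⁻¹) * c) * x := by rw [hc2]
      _ = (x₀⁻¹ * x₀) * J * (x₀⁻¹ * c * x) := by simp only [mul_assoc]
      _ = _ := by rw [hi0, one_mul]
  · show adj hF (x₀⁻¹ * c * x) * Γ₀ * (x₀⁻¹ * c * x) = Γ
    have e1 : adj hF x₀⁻¹ * adj hF x₀ = 1 := by
      rw [← adj_mul, hi0', adj_one]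
    calc adj hF (x₀⁻¹ * c * x) * Γ₀ * (x₀⁻¹ * c * x)
        = adj hF x * adj hF c * (adj hF x₀⁻¹ * adj hF x₀) * (x₀ * x₀⁻¹) * c * x := by
          rw [adj_mul, adj_mul, ← hx₀]
          simp only [mul_assoc]
      _ = adj hF x * (adj hF c * c) * x := by
          rw [e1, hi0']
          simp only [mul_one, mul_assoc]
      _ = Γ := by rw [hc1, mul_one, hx]

include hd h₀ hH hdet in
/-- The order of the isometry group of an invariant Hermitian matrix inside the commutant. -/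
theorem card_iso : Nat.card ((UG hF Γ₀).subgroupOf (CG d K)) = q ^ Fintype.card {x : II d // ¬ pD x} *
    ∏ i : Fin (Finset.univ.sup d + 1), Nat.card (Cfsg.GU (Fintype.card {k // d k = (i : ℕ)}) K q) := by
  classical
  let T : Set (Matrix (Idx d) (Idx d) K) := {Γ | IsInv Γ ∧ adj hF Γ = Γ ∧ Γ.det ≠ 0}
  have h1 := card_orbit hF Γ₀ (CG d K) T ?_ ?_
  · have hX : Nat.card T = Nat.card (XX hF d) := rfl
    have h2 := card_XX hF hd h₀ hdet
    have h3 : Nat.card (CG d K) = (∏ i : Fin (Finset.univ.sup d + 1), Nat.card (GL {k // d k = (i : ℕ)} K)) *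
        (q ^ Fintype.card {x : II d // ¬ pD x}) ^ 2 := by
      have h4 : Nat.card (CG d K) = Nat.card {g : GL (Idx d) K // (g : Matrix (Idx d) (Idx d) K) * Cfsg.jordanTypeMatrix d K =
          Cfsg.jordanTypeMatrix d K * (g : Matrix (Idx d) (Idx d) K)} := rfl
      rw [h4, card_GL_comm_eq hd, card_step2, card_step3, card_neg_fun hF]
    have h5 : ∀ i : Fin (Finset.univ.sup d + 1), Nat.card (GL {k // d k = (i : ℕ)} K) =
        Nat.card (Cfsg.GU (Fintype.card {k // d k = (i : ℕ)}) K q) * Nat.card (HH hF d (i : ℕ)) := by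
      intro i
      have : ∃ c : K, c ≠ 0 ∧ c ^ q = eps K (i : ℕ) * c := by
        rcases Nat.even_or_odd ((i : ℕ) - 1) with he | ho
        · refine ⟨1, one_ne_zero, ?_⟩
          rw [eps, he.neg_one_pow, one_pow, one_mul]
        · obtain ⟨w, hw, hwq⟩ := exists_skew hF
          refine ⟨w, hw, ?_⟩
          rw [eps, ho.neg_one_pow, hwq]
          ring
      obtain ⟨c, hc, hcq⟩ := this
      exact card_GL_herm hF _ c hc hcq (eps_mul_self _)
    have h6 : 0 < ∏ i : Fin (Finset.univ.sup d + 1), Nat.card (HH hF d (i : ℕ)) := by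
      apply Finset.prod_pos
      intro i _
      have h7 := h5 i
      have h8 : 0 < Nat.card (GL {k // d k = (i : ℕ)} K) := Nat.card_pos
      rw [h7] at h8
      exact Nat.pos_of_mul_pos_left h8
    have hq0 : 0 < q ^ Fintype.card {x : II d // ¬ pD x} := by
      have := one_lt_q hF
      positivity
    simp_rw [h5] at h3
    rw [Finset.prod_mul_distrib] at h3
    rw [h3, hX, h2] at h1
    have h9 : (∏ i : Fin (Finset.univ.sup d + 1), Nat.card (HH hF d (i : ℕ))) * q ^ Fintype.card {x : II d // ¬ pD x} *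
        (q ^ Fintype.card {x : II d // ¬ pD x} * ∏ i : Fin (Finset.univ.sup d + 1), Nat.card (Cfsg.GU (Fintype.card {k // d k = (i : ℕ)}) K q)) =
        (∏ i : Fin (Finset.univ.sup d + 1), Nat.card (HH hF d (i : ℕ))) * q ^ Fintype.card {x : II d // ¬ pD x} *
        Nat.card ((UG hF Γ₀).subgroupOf (CG d K)) := by
      calc _ = (∏ i : Fin (Finset.univ.sup d + 1), Nat.card (Cfsg.GU (Fintype.card {k // d k = (i : ℕ)}) K q)) *
            (∏ i : Fin (Finset.univ.sup d + 1), Nat.card (HH hF d (i : ℕ))) *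
            (q ^ Fintype.card {x : II d // ¬ pD x}) ^ 2 := by ring
        _ = _ := by rw [h1]; ring
    exact (Nat.eq_of_mul_eq_mul_left (Nat.mul_pos h6 hq0) h9).symm
  · intro g hg
    have hc : (g : Matrix (Idx d) (Idx d) K) * Cfsg.jordanTypeMatrix d K = Cfsg.jordanTypeMatrix d K * (g : Matrix (Idx d) (Idx d) K) := hg
    have hgd : (g : Matrix (Idx d) (Idx d) K).det ≠ 0 := ((Matrix.isUnit_iff_isUnit_det _).1 g.isUnit).ne_zero
    refine ⟨?_, ?_, ?_⟩
    · unfold IsInv at h₀ ⊢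
      have hadjJ : adj hF (Cfsg.jordanTypeMatrix d K) = (Cfsg.jordanTypeMatrix d K)ᵀ := adj_jordan hF
      calc (Cfsg.jordanTypeMatrix d K)ᵀ * (adj hF (g : Matrix (Idx d) (Idx d) K) * Γ₀ * (g : Matrix (Idx d) (Idx d) K)) * Cfsg.jordanTypeMatrix d K
          = adj hF ((g : Matrix (Idx d) (Idx d) K) * Cfsg.jordanTypeMatrix d K) * Γ₀ * ((g : Matrix (Idx d) (Idx d) K) * Cfsg.jordanTypeMatrix d K) := by
            rw [adj_mul, hadjJ]
            simp only [mul_assoc]
        _ = adj hF (g : Matrix (Idx d) (Idx d) K) * ((Cfsg.jordanTypeMatrix d K)ᵀ * Γ₀ * Cfsg.jordanTypeMatrix d K) * (g : Matrix (Idx d) (Idx d) K) := by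
            rw [hc, adj_mul, hadjJ]
            simp only [mul_assoc]
        _ = _ := by rw [h₀]
    · rw [adj_mul, adj_mul, adj_adj, hH, mul_assoc]
    · rw [Matrix.det_mul, Matrix.det_mul]
      exact mul_ne_zero (mul_ne_zero (det_adj_ne hF hgd) hdet) hgd
  · intro Γ hΓ
    exact commutant_trans hF h₀ hH hdet Γ hΓ.1 hΓ.2.1 hΓ.2.2

end main

end Cfsg.Agent.Lib.JType
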